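import Mathlib
import Cfsg.Agent.H84.PslStmt

set_option autoImplicit false

/-! Piece [P4] of S5163: all nontrivial root elements of `PSL_n(K)` (`n ≥ 3`) are conjugate to
the nontrivial elements of the highest root group. -/

namespace Cfsg.Agent.Lib.Helper15.PslP4

open Matrix Cfsg.Agent.H84.PslDefs

/-- a monomial matrix of determinant one conjugating `1 + a E_{o,e}` to `1 + c E_{i,j}` -/
theorem exists_conj {n : ℕ} {K : Type*} [Field K] (z0 : SpecialLinearGroup (Fin n) K)
    (o e m : Fin n) (hoe : o ≠ e) (hmo : m ≠ o) (hme : m ≠ e)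
    (a : K) (ha : a ≠ 0)
    (hz : ∀ r l : Fin n, z0 r l = (if r = l then 1 else 0) + (if r = o ∧ l = e then a else 0))
    (i j : Fin n) (hij : i ≠ j) (c : K) (hc : c ≠ 0) :
    ∃ g0 : SpecialLinearGroup (Fin n) K,
      g0 * z0 = SpecialLinearGroup.transvection hij c * g0 := by
  -- the permutation
  obtain ⟨σ₁, hσ₁⟩ : ∃ σ₁ : Equiv.Perm (Fin n), σ₁ = Equiv.swap i o := ⟨_, rfl⟩
  obtain ⟨τ, hτ⟩ : ∃ τ : Equiv.Perm (Fin n), τ = Equiv.swap (σ₁ j) e * σ₁ := ⟨_, rfl⟩
  have h1 : σ₁ i = o := by
    rw [hσ₁]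
    exact Equiv.swap_apply_left i o
  have hτi : τ i = o := by
    rw [hτ, Equiv.Perm.mul_apply, h1]
    apply Equiv.swap_apply_of_ne_of_ne
    · intro h
      rw [← h1] at h
      exact hij (σ₁.injective h)
    · exact hoe
  have hτj : τ j = e := by
    rw [hτ, Equiv.Perm.mul_apply]
    exact Equiv.swap_apply_left _ _
  -- the sign
  obtain ⟨ε, hε⟩ : ∃ ε : K, ε = (τ.permMatrix K).det := ⟨_, rfl⟩
  have hεε : ε * ε = 1 := by
    rw [hε, Matrix.det_permutation]
    rcases Int.units_eq_one_or (Equiv.Perm.sign τ) with h | h <;> rw [h] <;> simp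
  have hε0 : ε ≠ 0 := by
    intro h
    rw [h, mul_zero] at hεε
    exact zero_ne_one hεε
  -- the diagonal part
  obtain ⟨d, hd⟩ : ∃ d : Fin n → K,
      d = fun k => if k = o then c / a else if k = m then ε * a / c else 1 := ⟨_, rfl⟩
  have hdo : d o = c / a := by
    rw [hd]
    simp
  have hdm : d m = ε * a / c := by
    rw [hd]
    simp [hmo]
  have hde : d e = 1 := by
    rw [hd]
    simp [hoe.symm, hme.symm]
  have hprod : ∏ k, d k = ε := by
    rw [Finset.prod_eq_mul o m hmo.symm]
    · rw [hdo, hdm]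
      field_simp
    · intro k _ hk
      rw [hd]
      simp [hk.1, hk.2]
    · intro h
      exact absurd (Finset.mem_univ o) h
    · intro h
      exact absurd (Finset.mem_univ m) h
  obtain ⟨M, hM⟩ : ∃ M : Matrix (Fin n) (Fin n) K, M = τ.permMatrix K * Matrix.diagonal d :=
    ⟨_, rfl⟩
  have hdet : M.det = 1 := by
    rw [hM, Matrix.det_mul, Matrix.det_diagonal, hprod, ← hε, hεε]
  have hMe : ∀ k l, M k l = if τ k = l then d l else 0 := by
    intro k l
    rw [hM, Matrix.mul_diagonal]
    simp only [Equiv.Perm.permMatrix, PEquiv.toMatrix_apply, Equiv.toPEquiv_apply,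
      Option.mem_def, Option.some.injEq]
    split_ifs <;> simp
  refine ⟨⟨M, hdet⟩, ?_⟩
  ext k l
  show (M * (z0 : Matrix (Fin n) (Fin n) K)) k l =
    ((SpecialLinearGroup.transvection hij c : Matrix (Fin n) (Fin n) K) * M) k l
  have hL : (M * (z0 : Matrix (Fin n) (Fin n) K)) k l =
      M k l + (if l = e then M k o * a else 0) := by
    rw [Matrix.mul_apply]
    simp only [hz, mul_add]
    rw [Finset.sum_add_distrib]
    congr 1
    · simp
    · by_cases hl : l = e
      · simp [hl]
      · simp [hl]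
  have hR : ((SpecialLinearGroup.transvection hij c : Matrix (Fin n) (Fin n) K) * M) k l =
      M k l + (if i = k then c * M j l else 0) := by
    rw [SpecialLinearGroup.transvection_coe, Matrix.add_mul, Matrix.one_mul, Matrix.add_apply]
    congr 1
    rw [Matrix.mul_apply]
    by_cases hk : i = k
    · simp [Matrix.single_apply, hk]
    · simp [hk]
  rw [hL, hR]
  congr 1
  rw [hMe k o, hMe j l, hτj]
  by_cases hl : l = e
  · rw [if_pos hl, if_pos hl.symm, hl, hde, mul_one]
    by_cases hk : i = k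
    · rw [if_pos hk, ← hk, if_pos hτi, hdo]
      field_simp
    · rw [if_neg hk, if_neg, zero_mul]
      intro h
      apply hk
      rw [← hτi] at h
      exact (τ.injective h).symm
  · have hl' : ¬ e = l := fun h => hl h.symm
    rw [if_neg hl, if_neg hl', mul_zero]
    simp

theorem main : Cfsg.Agent.H84.PslStmt.ConjXset := by
  intro n K _ _ p _ _ hn z hz hz1 x hx
  obtain ⟨z0, hz0, rfl⟩ := hz
  obtain ⟨i, j, hij, c, hc, rfl⟩ := hx
  obtain ⟨o, ho⟩ : ∃ o : Fin n, o.val = 0 := ⟨⟨0, by omega⟩, rfl⟩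
  obtain ⟨e, he⟩ : ∃ e : Fin n, e.val + 1 = n := ⟨⟨n - 1, by omega⟩, by simp; omega⟩
  obtain ⟨m, hm⟩ : ∃ m : Fin n, m.val = 1 := ⟨⟨1, by omega⟩, rfl⟩
  have hoe : o ≠ e := by
    intro h
    rw [h] at ho
    omega
  have hmo : m ≠ o := by
    intro h
    rw [h] at hm
    omega
  have hme : m ≠ e := by
    intro h
    rw [h] at hm
    omega
  have hz0' : z0 ∈ V1 n K ⊓ V2 n K := hz0
  have hV1 := (mem_V1 n K z0).1 (Subgroup.mem_inf.1 hz0').1
  have hV2 := (mem_V2 n K z0).1 (Subgroup.mem_inf.1 hz0').2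
  obtain ⟨a, ha⟩ : ∃ a : K, a = z0 o e := ⟨_, rfl⟩
  have hzent : ∀ r l : Fin n,
      z0 r l = (if r = l then 1 else 0) + (if r = o ∧ l = e then a else 0) := by
    intro r l
    by_cases hrl : r = l
    · rw [hrl, hV1.2 l, if_pos rfl, if_neg, add_zero]
      rintro ⟨h1, h2⟩
      exact hoe (h1.symm.trans h2)
    · by_cases hr : r = o
      · by_cases hl : l = e
        · rw [if_neg hrl, if_pos ⟨hr, hl⟩, zero_add, ha, hr, hl]
        · have h0 : z0 r l = 0 := hV2.1 r l hrl (by
            intro h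
            apply hl
            apply Fin.ext
            omega)
          rw [h0, if_neg hrl, if_neg (fun h => hl h.2), add_zero]
      · have h0 : z0 r l = 0 := hV1.1 r l hrl (by
          intro h
          apply hr
          apply Fin.ext
          omega)
        rw [h0, if_neg hrl, if_neg (fun h => hr h.1), add_zero]
  have ha0 : a ≠ 0 := by
    intro h0
    apply hz1
    have h1 : z0 = 1 := by
      ext r l
      rw [hzent r l, h0]
      simp [Matrix.one_apply]
    rw [h1, map_one]
  obtain ⟨g0, hg0⟩ := exists_conj z0 o e m hoe hmo hme a ha0 hzent i j (ne_of_lt hij) c hc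
  refine ⟨proj n K g0, ?_⟩
  rw [← map_inv, ← map_mul, ← map_mul, hg0, mul_inv_cancel_right]

end Cfsg.Agent.Lib.Helper15.PslP4
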