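import Mathlib
import Cfsg.Prelude.Def_Blocks
import Cfsg.Agent.Lib.Helper82.Contrib

set_option autoImplicit false

namespace Cfsg.Agent.Lib.Helper15.NormBound

open Polynomial

/-- The product of the values of an integer polynomial at the primitive `N`-th roots of unity
is a rational integer (it is a resultant). -/
theorem prod_eval_int (N : ℕ) (hN : N ≠ 0) (ζ : ℂ) (hζ : IsPrimitiveRoot ζ N) (g : ℤ[X]) :
    ∃ n : ℤ, ∏ t ∈ (Finset.range N).filter (fun t => t.Coprime N),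
      (g.map (Int.castRingHom ℂ)).eval (ζ ^ t) = (n : ℂ) := by
  classical
  have : NeZero ((N : ℕ) : ℂ) := ⟨Nat.cast_ne_zero.2 hN⟩
  have : NeZero N := ⟨hN⟩
  refine ⟨Polynomial.resultant (cyclotomic N ℤ) g (cyclotomic N ℂ).natDegree g.natDegree, ?_⟩
  have h1 := Polynomial.resultant_eq_prod_eval (cyclotomic N ℂ) (g.map (Int.castRingHom ℂ))
    g.natDegree natDegree_map_le (IsAlgClosed.splits _)
  rw [(cyclotomic.monic N ℂ).leadingCoeff, one_pow, one_mul] at h1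
  have h3 : ∀ m n : ℕ, Polynomial.resultant ((cyclotomic N ℤ).map (Int.castRingHom ℂ))
      (g.map (Int.castRingHom ℂ)) m n
      = ((Polynomial.resultant (cyclotomic N ℤ) g m n : ℤ) : ℂ) := by
    intro m n
    rw [Polynomial.resultant_map_map]
    simp
  have h4 : Polynomial.resultant (cyclotomic N ℂ) (g.map (Int.castRingHom ℂ))
      (cyclotomic N ℂ).natDegree g.natDegree
      = ((Polynomial.resultant (cyclotomic N ℤ) g (cyclotomic N ℂ).natDegree g.natDegree : ℤ) : ℂ) := by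
    have := h3 (cyclotomic N ℂ).natDegree g.natDegree
    rwa [map_cyclotomic_int] at this
  rw [← h4, h1, cyclotomic.roots_eq_primitiveRoots_val]
  have h5 : ((primitiveRoots N ℂ).val.map (fun x => eval x (g.map (Int.castRingHom ℂ)))).prod
      = ∏ ξ ∈ primitiveRoots N ℂ, eval ξ (g.map (Int.castRingHom ℂ)) := rfl
  rw [h5]
  refine Finset.prod_bij (fun i _ ↦ ζ ^ i) ?_ ?_ ?_ ?_
  · simp only [and_imp, Finset.mem_filter, Finset.mem_range]
    rintro i - hi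
    rw [mem_primitiveRoots (Nat.pos_of_ne_zero hN)]
    exact hζ.pow_of_coprime i hi
  · simp only [and_imp, Finset.mem_filter, Finset.mem_range]
    rintro i hi - j hj - H
    exact hζ.pow_inj hi hj H
  · simp only [exists_prop, Finset.mem_filter, Finset.mem_range]
    intro ξ hξ
    rw [mem_primitiveRoots (Nat.pos_of_ne_zero hN), hζ.isPrimitiveRoot_iff] at hξ
    rcases hξ with ⟨i, hin, hi, H⟩
    exact ⟨i, ⟨hin, hi⟩, H⟩
  · intro i _
    rfl

/-- The product over the units `t` mod `N` of `∑ i, K i * μ i ^ t` is a rational integer when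
the `μ i` are `N`-th roots of unity and the `K i` are integers. -/
theorem prod_sum_int (N : ℕ) (hN : N ≠ 0) {ι : Type*} (s : Finset ι) (K : ι → ℤ) (μ : ι → ℂ)
    (hμ : ∀ i ∈ s, μ i ^ N = 1) :
    ∃ n : ℤ, ∏ t ∈ (Finset.range N).filter (fun t => t.Coprime N),
      (∑ i ∈ s, (K i : ℂ) * μ i ^ t) = (n : ℂ) := by
  classical
  have : NeZero N := ⟨hN⟩
  have hζ := Complex.isPrimitiveRoot_exp N hN
  obtain ⟨ζ, hζdef⟩ : ∃ ζ : ℂ, ζ = Complex.exp (2 * Real.pi * Complex.I / N) := ⟨_, rfl⟩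
  rw [← hζdef] at hζ
  have hex : ∀ i : ι, ∃ e : ℕ, i ∈ s → ζ ^ e = μ i := by
    intro i
    by_cases hi : i ∈ s
    · obtain ⟨e, -, he⟩ := hζ.eq_pow_of_pow_eq_one (hμ i hi)
      exact ⟨e, fun _ => he⟩
    · exact ⟨0, fun h => absurd h hi⟩
  choose e he using hex
  obtain ⟨n, hn⟩ := prod_eval_int N hN ζ hζ (∑ i ∈ s, C (K i) * X ^ (e i))
  refine ⟨n, ?_⟩
  rw [← hn]
  refine Finset.prod_congr rfl ?_
  intro t _
  rw [Polynomial.map_sum, Polynomial.eval_finsetSum]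
  refine Finset.sum_congr rfl ?_
  intro i hi
  rw [← he i hi]
  simp only [Polynomial.map_mul, Polynomial.map_C, Polynomial.map_pow, Polynomial.map_X,
    Polynomial.eval_mul, Polynomial.eval_C, Polynomial.eval_pow, Polynomial.eval_X]
  rw [eq_intCast, ← pow_mul, ← pow_mul, mul_comm (e i) t]

theorem memLocalRing_prod {M : Ideal Cfsg.AlgInt} (hMp : M.IsPrime) {κ : Type*} (U : Finset κ)
    (ρ : κ → ℂ) (hρ : ∀ t ∈ U, Cfsg.MemLocalRing M (ρ t)) :
    Cfsg.MemLocalRing M (∏ t ∈ U, ρ t) := by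
  classical
  induction U using Finset.induction_on with
  | empty =>
    rw [Finset.prod_empty]
    exact Cfsg.Agent.Lib.Helper77.LocalRing.memLocalRing_one hMp
  | insert x U hx ih =>
    rw [Finset.prod_insert hx]
    exact Cfsg.Agent.Lib.Helper77.LocalRing.memLocalRing_mul hMp (hρ x (Finset.mem_insert_self x U))
      (ih (fun t ht => hρ t (Finset.mem_insert_of_mem ht)))

/-- Cyclotomic norm + AM-GM bound (piece [N] of S4715). -/
theorem norm_bound (p : ℕ) [Fact p.Prime] (M : Ideal Cfsg.AlgInt) (hM : Cfsg.IsPModular p M)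
    (a h : ℕ) {ι : Type*} (s : Finset ι) (K : ι → ℤ) (μ : ι → ℂ)
    (hμ : ∀ i ∈ s, μ i ^ (p ^ a) = 1)
    (hpos : ∀ t : ℕ, t.Coprime (p ^ a) →
      ∃ r : ℝ, 0 < r ∧ ∑ i ∈ s, (K i : ℂ) * μ i ^ t = (r : ℂ))
    (hval : ∀ t : ℕ, t.Coprime (p ^ a) →
      ∃ ρ : ℂ, Cfsg.MemLocalRing M ρ ∧ ∑ i ∈ s, (K i : ℂ) * μ i ^ t = (p : ℂ) ^ h * ρ) :
    ((p ^ a).totient : ℝ) * (p : ℝ) ^ h ≤
      ∑ t ∈ (Finset.range (p ^ a)).filter (fun t => t.Coprime (p ^ a)),
        (∑ i ∈ s, (K i : ℂ) * μ i ^ t).re := by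
  classical
  have hp : p.Prime := Fact.out
  have hMp : M.IsPrime := Cfsg.Agent.Lib.Helper77.LocalRing.isPrime_of_isPModular hM
  have hN : p ^ a ≠ 0 := pow_ne_zero _ hp.ne_zero
  obtain ⟨N, hNdef⟩ : ∃ N : ℕ, N = p ^ a := ⟨_, rfl⟩
  rw [← hNdef] at hμ hpos hval hN ⊢
  obtain ⟨U, hU⟩ : ∃ U : Finset ℕ, U = (Finset.range N).filter (fun t => t.Coprime N) := ⟨_, rfl⟩
  have hUcard : U.card = N.totient := by
    rw [hU, Nat.totient_eq_card_coprime]
    congr 1
    ext t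
    simp only [Finset.mem_filter, Finset.mem_range]
    rw [Nat.coprime_comm]
  have hφpos : 0 < N.totient := Nat.totient_pos.2 (Nat.pos_of_ne_zero hN)
  have hUmem : ∀ t ∈ U, t.Coprime N := by
    intro t ht
    rw [hU] at ht
    exact (Finset.mem_filter.1 ht).2
  -- choose the real values and the local factors
  have hr' : ∀ t : ℕ, ∃ r : ℝ, t ∈ U → 0 < r ∧ ∑ i ∈ s, (K i : ℂ) * μ i ^ t = (r : ℂ) := by
    intro t
    by_cases ht : t ∈ U
    · obtain ⟨r, hr⟩ := hpos t (hUmem t ht)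
      exact ⟨r, fun _ => hr⟩
    · exact ⟨0, fun h => absurd h ht⟩
  choose r hr using hr'
  have hρ' : ∀ t : ℕ, ∃ ρ : ℂ, t ∈ U →
      Cfsg.MemLocalRing M ρ ∧ ∑ i ∈ s, (K i : ℂ) * μ i ^ t = (p : ℂ) ^ h * ρ := by
    intro t
    by_cases ht : t ∈ U
    · obtain ⟨ρ, hρ⟩ := hval t (hUmem t ht)
      exact ⟨ρ, fun _ => hρ⟩
    · exact ⟨0, fun h => absurd h ht⟩
  choose ρ hρ using hρ'
  obtain ⟨n, hn⟩ := prod_sum_int N hN s K μ hμ
  rw [← hU] at hn ⊢
  -- n as a product of positive reals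
  have hn1 : (n : ℝ) = ∏ t ∈ U, r t := by
    apply Complex.ofReal_injective
    rw [Complex.ofReal_intCast, ← hn, Complex.ofReal_prod]
    exact Finset.prod_congr rfl (fun t ht => (hr t ht).2)
  have hprodpos : 0 < ∏ t ∈ U, r t := Finset.prod_pos (fun t ht => (hr t ht).1)
  have hnpos : 0 < n := by
    have : (0 : ℝ) < (n : ℝ) := by rw [hn1]; exact hprodpos
    exact_mod_cast this
  -- divisibility
  have hn2 : (n : ℂ) = (p : ℂ) ^ (h * N.totient) * ∏ t ∈ U, ρ t := by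
    rw [← hn, pow_mul, ← hUcard, ← Finset.prod_const, ← Finset.prod_mul_distrib]
    exact Finset.prod_congr rfl (fun t ht => (hρ t ht).2)
  have hdvd : (p : ℤ) ^ (h * N.totient) ∣ n :=
    Cfsg.Agent.Lib.Helper82.Contrib.pow_dvd_int_of_eq hM (h * N.totient) n _
      (memLocalRing_prod hMp U ρ (fun t ht => (hρ t ht).1)) hn2
  have hle : (p : ℤ) ^ (h * N.totient) ≤ n := Int.le_of_dvd hnpos hdvd
  have hle' : ((p : ℝ) ^ h) ^ N.totient ≤ ∏ t ∈ U, r t := by
    rw [← hn1, ← pow_mul]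
    exact_mod_cast hle
  -- AM-GM
  have hφR : (0 : ℝ) < (N.totient : ℝ) := by exact_mod_cast hφpos
  have hamgm := Real.geom_mean_le_arith_mean_weighted U (fun _ => ((N.totient : ℝ))⁻¹) r
    (fun _ _ => inv_nonneg.2 hφR.le)
    (by
      rw [Finset.sum_const, hUcard, nsmul_eq_mul]
      exact mul_inv_cancel₀ hφR.ne')
    (fun t ht => (hr t ht).1.le)
  rw [Real.finsetProd_rpow U r (fun t ht => (hr t ht).1.le), ← Finset.mul_sum] at hamgm
  have hph : (0 : ℝ) ≤ (p : ℝ) ^ h := pow_nonneg (Nat.cast_nonneg p) h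
  have h6 : (p : ℝ) ^ h ≤ (∏ t ∈ U, r t) ^ ((N.totient : ℝ))⁻¹ := by
    have h7 := Real.rpow_le_rpow (pow_nonneg hph _) hle' (inv_nonneg.2 hφR.le)
    rwa [Real.pow_rpow_inv_natCast hph hφpos.ne'] at h7
  have h8 : (p : ℝ) ^ h ≤ ((N.totient : ℝ))⁻¹ * ∑ t ∈ U, r t := le_trans h6 hamgm
  have h9 : ∑ t ∈ U, (∑ i ∈ s, (K i : ℂ) * μ i ^ t).re = ∑ t ∈ U, r t := by
    refine Finset.sum_congr rfl (fun t ht => ?_)
    rw [(hr t ht).2, Complex.ofReal_re]
  rw [h9]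
  have h10 := mul_le_mul_of_nonneg_left h8 hφR.le
  rwa [← mul_assoc, mul_inv_cancel₀ hφR.ne', one_mul] at h10

end Cfsg.Agent.Lib.Helper15.NormBound
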