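import Mathlib
import Cfsg.Prelude.Def_Characters
import Cfsg.Agent.Lib.Helper15.AGroup
import Cfsg.Agent.Lib.Helper15.CliffTools
import Cfsg.Agent.Lib.Helper3.MGroup
import Cfsg.Agent.Lib.CT.Kernel
import Cfsg.Agent.Lib.CT.LinChar
import Cfsg.Agent.Lib.CT.Ops
import Cfsg.Agent.Lib.CT.IndChar
import Cfsg.Agent.Lib.CT.FrobRec
import Cfsg.Agent.Lib.Helper81.CliffCorr
import Cfsg.Agent.Lib.Helper80.Integrality

/-!
# Characters of solvable groups with abelian Sylow subgroups

* `exists_two_constituents`: a nonlinear irreducible character of a finite solvable A-group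
  restricts non-homogeneously to some characteristic subgroup.
* `charDegree_le_index_mul`, `charDegree_le_relIndex_mul`: `χ(1) ≤ |B : A| ξ(1)` for a constituent
  `ξ` of the restriction of the irreducible character `χ` to `A`.
* `restrict_irr_of_induced`: if `ψ = η^G` with `ψ_N` irreducible and `S ≤ T ∩ N` with
  `|N : S| ≤ |G : T|`, then `η_S` is irreducible.
-/

set_option autoImplicit false

namespace Cfsg.Agent.Lib.Helper15.AGroupChar

open Cfsg Cfsg.Agent.Lib.CT Cfsg.Agent.Lib.CT.Wedderburn Cfsg.Agent.Lib.Helper15.AGroup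
  Cfsg.Agent.Lib.Helper15

universe u

open scoped commutatorElement

/-- A nonlinear irreducible character of a finite solvable group with abelian Sylow subgroups
has two distinct irreducible constituents on some characteristic subgroup. -/
theorem exists_two_constituents {N : Type u} [Group N] [Fintype N] [hs : Group.IsSolvable N]
    (hA : AGrp N) {ϑ : N → ℂ} (hϑ : IsIrrCharacter N ϑ) (h1 : ϑ 1 ≠ 1) :
    ∃ (F : Subgroup N), F.Characteristic ∧ ∃ (lam lam' : F → ℂ), IsIrrCharacter F lam ∧
      IsIrrCharacter F lam' ∧ lam ≠ lam' ∧ ∀ [Fintype F],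
      classInner (fun f : F => ϑ f) lam ≠ 0 ∧ classInner (fun f : F => ϑ f) lam' ≠ 0 := by
  classical
  have hϑc := isCharacter_of_irr hϑ
  obtain ⟨K, hKn, hK⟩ := Kernel.exists_normal_ker hϑc
  have hex : ∃ j, derivedSeries N j ≤ K := by
    obtain ⟨n, hn⟩ := (Group.isSolvable_def N).mp hs
    exact ⟨n, hn ▸ bot_le⟩
  have hjK : derivedSeries N (Nat.find hex) ≤ K := Nat.find_spec hex
  have hj0 : Nat.find hex ≠ 0 := by
    intro h0
    rw [h0, derivedSeries_zero] at hjK
    apply h1
    apply Cfsg.Agent.Lib.Helper3.MGroup.apply_one_eq_one_of_comm hϑ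
    intro a b
    exact (hK _).mp (hjK (Subgroup.mem_top _))
  obtain ⟨i, hi⟩ := Nat.exists_eq_succ_of_ne_zero hj0
  have hiK : ¬ derivedSeries N i ≤ K := Nat.find_min hex (by omega)
  have hFF : ⁅derivedSeries N i, derivedSeries N i⁆ ≤ K := by
    rw [← derivedSeries_succ, ← Nat.succ_eq_add_one, ← hi]
    exact hjK
  refine ⟨derivedSeries N i, derivedSeries_characteristic N i, ?_⟩
  have : Fintype (derivedSeries N i) := Fintype.ofFinite _
  have hresc : IsCharacter (derivedSeries N i) (fun f : derivedSeries N i => ϑ f) :=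
    Ops.isCharacter_restrict _ hϑc
  by_contra hcon
  have hex1 : ∃ lam : derivedSeries N i → ℂ, IsIrrCharacter (derivedSeries N i) lam ∧
      classInner (fun f : derivedSeries N i => ϑ f) lam ≠ 0 := by
    by_contra hno
    push Not at hno
    have h0 := CliffTools.char_eq_zero_of_no_constituent hresc hno
    have h2 : ϑ 1 = 0 := congrFun h0 1
    exact irr_apply_one_ne_zero hϑ h2
  obtain ⟨lam, hlam, hlamc⟩ := hex1
  have huniq : ∀ ψ : derivedSeries N i → ℂ, IsIrrCharacter (derivedSeries N i) ψ →
      classInner (fun f : derivedSeries N i => ϑ f) ψ ≠ 0 → ψ = lam := by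
    intro ψ hψ hψc
    by_contra hne
    refine hcon ⟨lam, ψ, hlam, hψ, fun h => hne h.symm, ?_⟩
    intro inst
    have hinst : inst = this := Subsingleton.elim _ _
    subst hinst
    exact ⟨hlamc, hψc⟩
  obtain ⟨e, he, -⟩ := CliffTools.char_eq_smul_of_unique_constituent hresc hlam huniq
  have hlam1 : lam 1 = 1 := by
    apply Cfsg.Agent.Lib.Helper3.MGroup.apply_one_eq_one_of_comm hlam
    intro a b
    apply Cfsg.Agent.Lib.Helper3.MGroup.constituent_apply_eq hresc hlam hlamc
    have hmem : ((⁅a, b⁆ : derivedSeries N i) : N) ∈ K := hFF (by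
      have h3 : ((⁅a, b⁆ : derivedSeries N i) : N) = ⁅(a : N), (b : N)⁆ := by
        simp [commutatorElement_def]
      rw [h3]
      exact Subgroup.commutator_mem_commutator a.2 b.2)
    exact (hK _).mp hmem
  have hlamchar := isCharacter_of_irr hlam
  have hval : ∀ f : derivedSeries N i, ϑ f = (e : ℂ) * lam f := fun f => by
    have := congrFun he f
    simpa using this
  have he1 : ϑ 1 = e := by
    have := hval 1
    rw [hlam1, mul_one] at this
    exact this
  have hnorm : ∀ f : derivedSeries N i, ‖ϑ (f : N)‖ = (ϑ 1).re := by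
    intro f
    rw [hval f, he1, norm_mul, LinChar.linear_norm hlamchar hlam1 f, mul_one]
    simp
  have hcent : ∀ f ∈ derivedSeries N i, ∀ x : N, f * x * f⁻¹ * x⁻¹ ∈ K := by
    intro f hf x
    exact (hK _).mpr (Kernel.commutator_of_norm_eq hϑc (hnorm ⟨f, hf⟩) x)
  apply hiK
  rcases Nat.eq_zero_or_pos i with hi0 | hipos
  · exfalso
    apply h1
    apply Cfsg.Agent.Lib.Helper3.MGroup.apply_one_eq_one_of_comm hϑ
    intro a b
    have hFtop : derivedSeries N i = ⊤ := by rw [hi0, derivedSeries_zero]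
    have := hcent a (hFtop ▸ Subgroup.mem_top a) b
    rw [commutatorElement_def]
    exact (hK _).mp this
  · intro f hf
    have hfc : f ∈ commutator N := by
      obtain ⟨i', rfl⟩ := Nat.exists_eq_succ_of_ne_zero hipos.ne'
      rw [Nat.succ_eq_add_one, derivedSeries_succ] at hf
      rw [commutator_def]
      exact Subgroup.commutator_mono le_top le_top hf
    have hAQ : AGrp (N ⧸ K) :=
      AGrp.of_surjective (QuotientGroup.mk' K) (QuotientGroup.mk'_surjective K) hA
    have hzc : QuotientGroup.mk' K f ∈ Subgroup.center (N ⧸ K) := by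
      rw [Subgroup.mem_center_iff]
      intro q
      obtain ⟨x, rfl⟩ := QuotientGroup.mk'_surjective K q
      rw [← map_mul, ← map_mul]
      change ((x * f : N) : N ⧸ K) = ((f * x : N) : N ⧸ K)
      rw [QuotientGroup.eq]
      have := hcent f⁻¹ (Subgroup.inv_mem _ hf) x⁻¹
      simpa [mul_assoc] using this
    have hzd : QuotientGroup.mk' K f ∈ commutator (N ⧸ K) := by
      have h3 := Subgroup.mem_map_of_mem (QuotientGroup.mk' K) hfc
      rw [commutator_def, Subgroup.map_commutator,
        Subgroup.map_top_of_surjective _ (QuotientGroup.mk'_surjective K)] at h3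
      rw [commutator_def]
      exact h3
    have := hAQ.taunt hzc hzd
    exact (QuotientGroup.eq_one_iff f).mp this

open Cfsg.Agent.Lib.Helper81.Mult Cfsg.Agent.Lib.Helper81.Cliff Cfsg.Agent.Lib.Helper81.CliffCorr

/-- `χ(1) ≤ |B : A| ξ(1)` for an irreducible constituent `ξ` of `χ_A`. -/
theorem charDegree_le_index_mul {B : Type u} [Group B] [Fintype B] (A : Subgroup B) [Fintype A]
    (χ : IrrCharacter B) (ξ : IrrCharacter A) (h : multC (res A χ.1) ξ ≠ 0) :
    charDegree χ.1 ≤ A.index * charDegree ξ.1 := by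
  classical
  have := finite_irrCharacter B
  have : Fintype (IrrCharacter B) := Fintype.ofFinite _
  have hΨ : IsCharacter B (indFun A ξ.1) :=
    IndChar.isCharacter_indFun A ξ.1 (irr_isCharacter ξ)
  have h1 : mult (indFun A ξ.1) χ ≠ 0 := by
    intro h0
    apply h
    rw [← multC_indFun', ← mult_cast hΨ, h0, Nat.cast_zero]
  have h2 := charDegree_expand hΨ
  have h3 : charDegree (indFun A ξ.1) = A.index * charDegree ξ.1 := by
    have : ((charDegree (indFun A ξ.1) : ℕ) : ℂ) = ((A.index * charDegree ξ.1 : ℕ) : ℂ) := by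
      rw [← Cfsg.Agent.Lib.Helper80.Integrality.apply_one_eq_charDegree hΨ, FrobRec.indFun_one,
        Nat.cast_mul, ← deg_cast ξ]
    exact_mod_cast this
  rw [← h3, h2]
  calc charDegree χ.1 ≤ mult (indFun A ξ.1) χ * charDegree χ.1 :=
        Nat.le_mul_of_pos_left _ (Nat.pos_of_ne_zero h1)
    _ ≤ ∑ χ' : IrrCharacter B, mult (indFun A ξ.1) χ' * charDegree χ'.1 :=
        Finset.single_le_sum (f := fun χ' : IrrCharacter B =>
          mult (indFun A ξ.1) χ' * charDegree χ'.1) (fun _ _ => Nat.zero_le _) (Finset.mem_univ χ)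

/-- `ϑ(1) ≤ |N : S| ξ(1)` for an irreducible constituent `ξ` of `ϑ_S`, for subgroups `S ≤ N`
of an ambient group. -/
theorem charDegree_le_relIndex_mul {G : Type u} [Group G] [Fintype G] (N S : Subgroup G)
    [Fintype N] [Fintype S] (hSN : S ≤ N) (ϑ : IrrCharacter N) (ξ : IrrCharacter S)
    (h : multC (resTo hSN ϑ.1) ξ ≠ 0) :
    charDegree ϑ.1 ≤ S.relIndex N * charDegree ξ.1 := by
  classical
  let e : S.subgroupOf N ≃* S := Subgroup.subgroupOfEquivOfLe hSN
  have : Fintype (S.subgroupOf N) := Fintype.ofFinite _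
  let ξ' : IrrCharacter (S.subgroupOf N) :=
    ⟨fun x => ξ.1 (e x), Ops.isIrrCharacter_comp_mulEquiv e ξ.2⟩
  have h1 : multC (res (S.subgroupOf N) ϑ.1) ξ' = multC (resTo hSN ϑ.1) ξ := by
    rw [multC_def, multC_def]
    congr 1
    · rw [Nat.card_congr e.toEquiv]
    · refine Fintype.sum_equiv e.toEquiv _ _ (fun x => ?_)
      change ϑ.1 (x : N) * ξ.1 (e x⁻¹) = ϑ.1 (Subgroup.inclusion hSN (e x)) * ξ.1 (e x)⁻¹
      rw [map_inv]
      congr 2
  have h2 := charDegree_le_index_mul (S.subgroupOf N) ϑ ξ' (by rw [h1]; exact h)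
  have h3 : charDegree ξ'.1 = charDegree ξ.1 := by
    have : ((charDegree ξ'.1 : ℕ) : ℂ) = charDegree ξ.1 := by
      rw [← deg_cast ξ', ← deg_cast ξ]
      change ξ.1 (e 1) = ξ.1 1
      rw [map_one]
    exact_mod_cast this
  rw [h3] at h2
  exact h2

/-- If `ψ = η^G` for `η ∈ Irr(T)`, the restriction `ψ_N` is irreducible, and `S ≤ T ∩ N` has
`|N : S| ≤ |G : T|`, then `η_S` is irreducible. -/
theorem restrict_irr_of_induced {G : Type u} [Group G] [Fintype G] (N T S : Subgroup G)
    (hST : S ≤ T) (hSN : S ≤ N) (hidx : S.relIndex N ≤ T.index) {ψ : G → ℂ}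
    (hψ : IsIrrCharacter G ψ) (hψN : IsIrrCharacter N (fun n : N => ψ n)) {η : T → ℂ}
    (hη : IsIrrCharacter T η) (hind : indFun T η = ψ) :
    IsIrrCharacter S (fun s : S => η ⟨s, hST s.2⟩) := by
  classical
  have : Fintype N := Fintype.ofFinite _
  have : Fintype T := Fintype.ofFinite _
  have : Fintype S := Fintype.ofFinite _
  have := finite_irrCharacter S
  have : Fintype (IrrCharacter S) := Fintype.ofFinite _
  have := finite_irrCharacter T
  have : Fintype (IrrCharacter T) := Fintype.ofFinite _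
  have hηc := isCharacter_of_irr hη
  have hresc : IsCharacter S (resTo hST η) := isCharacter_resTo hST hηc
  have hdeg : charDegree (resTo hST η) = charDegree η := by
    have : ((charDegree (resTo hST η) : ℕ) : ℂ) = charDegree η := by
      rw [← Cfsg.Agent.Lib.Helper80.Integrality.apply_one_eq_charDegree hresc,
        ← Cfsg.Agent.Lib.Helper80.Integrality.apply_one_eq_charDegree hηc]
      rfl
    exact_mod_cast this
  have hηpos : 0 < charDegree η := deg_pos ⟨η, hη⟩
  obtain ⟨ξ, hξ⟩ := exists_constituent hresc (by rw [hdeg]; exact hηpos.ne')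
  have hψc := isCharacter_of_irr hψ
  have hresT : IsCharacter T (res T ψ) := isCharacter_res T hψc
  have h1 : mult (res T ψ) ⟨η, hη⟩ = 1 := by
    have : ((mult (res T ψ) ⟨η, hη⟩ : ℕ) : ℂ) = 1 := by
      rw [mult_cast hresT, ← multC_indFun' T ⟨η, hη⟩ ⟨ψ, hψ⟩]
      change multC (indFun T η) ⟨ψ, hψ⟩ = 1
      rw [hind]
      have := multC_irr (⟨ψ, hψ⟩ : IrrCharacter G) ⟨ψ, hψ⟩
      rw [if_pos rfl] at this
      exact this
    exact_mod_cast this
  have h2 : mult (resTo hST (res T ψ)) ξ ≠ 0 := by
    rw [mult_res_trans hST hresT ξ]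
    intro h0
    have h3 := Finset.single_le_sum (f := fun η' : IrrCharacter T =>
      mult (res T ψ) η' * mult (resTo hST η'.1) ξ) (fun _ _ => Nat.zero_le _)
      (Finset.mem_univ (⟨η, hη⟩ : IrrCharacter T))
    rw [h0] at h3
    simp only [h1, one_mul] at h3
    exact hξ (Nat.le_zero.mp h3)
  have h3 : multC (resTo hSN (fun n : N => ψ n)) ξ ≠ 0 := by
    have h4 : resTo hSN (fun n : N => ψ n) = resTo hST (res T ψ) := rfl
    rw [h4, ← mult_cast (isCharacter_resTo hST hresT)]
    exact_mod_cast h2
  have h5 := charDegree_le_relIndex_mul N S hSN ⟨fun n : N => ψ n, hψN⟩ ξ h3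
  have h6 : charDegree (fun n : N => ψ n) = T.index * charDegree η := by
    have : ((charDegree (fun n : N => ψ n) : ℕ) : ℂ) = ((T.index * charDegree η : ℕ) : ℂ) := by
      rw [← Cfsg.Agent.Lib.Helper80.Integrality.apply_one_eq_charDegree (isCharacter_of_irr hψN),
        Nat.cast_mul, ← Cfsg.Agent.Lib.Helper80.Integrality.apply_one_eq_charDegree hηc]
      change ψ 1 = _
      rw [← hind, FrobRec.indFun_one]
    exact_mod_cast this
  rw [h6] at h5
  have h7 : charDegree η ≤ charDegree ξ.1 := by
    have hTpos : 0 < T.index := Nat.pos_of_ne_zero Subgroup.index_ne_zero_of_finite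
    have : T.index * charDegree η ≤ T.index * charDegree ξ.1 :=
      h5.trans (Nat.mul_le_mul_right _ hidx)
    exact Nat.le_of_mul_le_mul_left this hTpos
  have h8 := charDegree_expand hresc
  have h9 : resTo hST η = ξ.1 := by
    funext s
    rw [char_expand hresc s, Finset.sum_eq_single ξ]
    · have hm1 : mult (resTo hST η) ξ = 1 := by
        have hle := Finset.single_le_sum (f := fun χ : IrrCharacter S =>
          mult (resTo hST η) χ * charDegree χ.1) (fun _ _ => Nat.zero_le _) (Finset.mem_univ ξ)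
        rw [← h8, hdeg] at hle
        have hpos := deg_pos ξ
        have h10 : mult (resTo hST η) ξ * charDegree ξ.1 ≤ 1 * charDegree ξ.1 := by
          rw [one_mul]
          exact hle.trans h7
        have h11 := Nat.le_of_mul_le_mul_right h10 hpos
        have h12 := Nat.pos_of_ne_zero hξ
        omega
      rw [hm1, Nat.cast_one, one_mul]
    · intro χ _ hχ
      have hle := Finset.sum_le_sum_of_subset (f := fun χ : IrrCharacter S =>
        mult (resTo hST η) χ * charDegree χ.1) (Finset.subset_univ ({ξ, χ} : Finset _))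
      rw [Finset.sum_pair hχ.symm, ← h8, hdeg] at hle
      have hposξ := deg_pos ξ
      have hposχ := deg_pos χ
      have hmξ : 1 ≤ mult (resTo hST η) ξ := Nat.pos_of_ne_zero hξ
      have hz : mult (resTo hST η) χ = 0 := by
        by_contra hne
        have h1' : 1 ≤ mult (resTo hST η) χ := Nat.pos_of_ne_zero hne
        nlinarith [Nat.mul_le_mul hmξ (le_refl (charDegree ξ.1)),
          Nat.mul_le_mul h1' (le_refl (charDegree χ.1))]
      rw [hz, Nat.cast_zero, zero_mul]
    · intro h
      exact absurd (Finset.mem_univ _) h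
  have h10 : (fun s : S => η ⟨s, hST s.2⟩) = ξ.1 := h9
  rw [h10]
  exact ξ.2

end Cfsg.Agent.Lib.Helper15.AGroupChar
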