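import Mathlib

/-!
Nilpotency in modular group algebras.  For a field `F` of characteristic `p`, a finite
group `G` and a normal `p`-subgroup `Q`:

* a `p`-group acting linearly on a nonzero `F`-vector space fixes a nonzero vector;
* a product of `|G|` elements `u - 1` (`u ∈ Q`) vanishes in `F[G]`;
* a central element of `F[G]` all of whose coefficient sums over the cosets `xQ` vanish
  is nilpotent.
-/

set_option autoImplicit false
set_option linter.unusedSectionVars false
set_option linter.style.haveILetI false

namespace Cfsg.Agent.Lib.Helper15.AugNilp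

section FixedVector

variable {Q : Type*} [Group Q] [Finite Q] (p : ℕ) [Fact p.Prime]
variable {F : Type*} [Field F] [CharP F p]
variable {V : Type*} [AddCommGroup V] [Module F V]

include F in
theorem nsmul_prime_eq_zero (v : V) : p • v = 0 := by
  rw [← Nat.cast_smul_eq_nsmul F, CharP.cast_eq_zero, zero_smul]

/-- A finite `p`-group acting linearly on a nonzero vector space over a field of
characteristic `p` fixes a nonzero vector. -/
theorem exists_fixed_ne_zero (hQ : IsPGroup p Q) [Nontrivial V] (ρ : Representation F Q V) :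
    ∃ v : V, v ≠ 0 ∧ ∀ u : Q, ρ u v = v := by
  obtain ⟨w, hw⟩ := exists_ne (0 : V)
  let S : Set V := Set.range (fun u : Q => ρ u w)
  let W₀ : AddSubgroup V := AddSubgroup.closure S
  have hinv : ∀ (u : Q) (x : V), x ∈ W₀ → ρ u x ∈ W₀ := by
    intro u x hx
    induction hx using AddSubgroup.closure_induction with
    | mem x hx =>
      obtain ⟨u', rfl⟩ := hx
      apply AddSubgroup.subset_closure
      refine ⟨u * u', ?_⟩
      simp
    | zero => simp [W₀.zero_mem]
    | add x y _ _ hx hy => rw [map_add]; exact W₀.add_mem hx hy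
    | neg x _ hx => rw [map_neg]; exact W₀.neg_mem hx
  let act : MulAction Q W₀ :=
    { smul := fun u x => ⟨ρ u x.1, hinv u x.1 x.2⟩
      one_smul := fun x => by
        apply Subtype.ext
        simp [HSMul.hSMul]
      mul_smul := fun u v x => by
        apply Subtype.ext
        simp [HSMul.hSMul] }
  have hsmul : ∀ (u : Q) (x : W₀), ((u • x : W₀) : V) = ρ u x.1 := fun u x => rfl
  haveI : Finite S := Set.finite_range _
  haveI : AddGroup.FG W₀ := AddGroup.closure_finite_fg S
  haveI : Finite W₀ := by
    apply AddCommGroup.finite_of_fg_isAddTorsion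
    intro x
    rw [isOfFinAddOrder_iff_nsmul_eq_zero]
    refine ⟨p, (Fact.out : p.Prime).pos, ?_⟩
    apply Subtype.ext
    simpa using nsmul_prime_eq_zero p (F := F) (x : V)
  let w₀ : W₀ := ⟨w, AddSubgroup.subset_closure ⟨1, by simp⟩⟩
  have hw₀ : w₀ ≠ 0 := fun h => hw (congrArg Subtype.val h)
  have hord : addOrderOf w₀ = p := by
    apply addOrderOf_eq_prime
    · apply Subtype.ext
      simpa using nsmul_prime_eq_zero p (F := F) w
    · exact hw₀
  have hdvd : p ∣ Nat.card W₀ := by
    rw [← hord]
    exact addOrderOf_dvd_natCard w₀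
  have h0 : (0 : W₀) ∈ MulAction.fixedPoints Q W₀ := by
    intro u
    apply Subtype.ext
    rw [hsmul]
    simp
  obtain ⟨b, hb, hb0⟩ := hQ.exists_fixed_point_of_prime_dvd_card_of_fixed_point W₀ hdvd h0
  refine ⟨b.1, fun h => hb0 (Subtype.ext h.symm), fun u => ?_⟩
  have := congrArg Subtype.val (hb u)
  rwa [hsmul] at this

/-- A product of at least `codim W` operators `ρ u - 1` maps the whole space into the invariant
subspace `W`. -/
theorem prod_sub_one_mem (hQ : IsPGroup p Q) [FiniteDimensional F V] (ρ : Representation F Q V) :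
    ∀ (k : ℕ) (W : Submodule F V), (∀ u, W ≤ W.comap (ρ u)) → Module.finrank F (V ⧸ W) ≤ k →
      ∀ us : List Q, us.length = k → ∀ v : V, (us.map (fun u => ρ u - 1)).prod v ∈ W := by
  intro k
  induction k with
  | zero =>
    intro W _ hfin us _ v
    have h0 : Module.finrank F (V ⧸ W) = 0 := Nat.le_zero.mp hfin
    have hsub : Subsingleton (V ⧸ W) := Module.finrank_zero_iff.mp h0
    have htop : W = ⊤ := Submodule.Quotient.subsingleton_iff.mp hsub
    rw [htop]
    exact Submodule.mem_top
  | succ k ih =>
    intro W hW hfin us hlen v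
    by_cases htop : W = ⊤
    · rw [htop]
      exact Submodule.mem_top
    match us, hlen with
    | u :: us', hlen' =>
      have hlen'' : us'.length = k := by simpa using hlen'
      haveI : Nontrivial (V ⧸ W) := Submodule.Quotient.nontrivial_iff.mpr htop
      obtain ⟨vbar, hvbar, hfix⟩ := exists_fixed_ne_zero p hQ (ρ.quotient W hW)
      obtain ⟨v₀, rfl⟩ := Submodule.Quotient.mk_surjective W vbar
      have hv₀ : v₀ ∉ W := fun h => hvbar ((Submodule.Quotient.mk_eq_zero W).mpr h)
      have hfix' : ∀ u : Q, ρ u v₀ - v₀ ∈ W := by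
        intro u
        have := hfix u
        rw [Representation.quotient_apply, Submodule.mapQ_apply] at this
        exact (Submodule.Quotient.eq W).mp this
      let W₁ : Submodule F V := W ⊔ Submodule.span F {v₀}
      have hW₁ : ∀ u, W₁ ≤ W₁.comap (ρ u) := by
        intro u x hx
        rw [Submodule.mem_comap]
        obtain ⟨w, hw, y, hy, rfl⟩ := Submodule.mem_sup.mp hx
        obtain ⟨c, rfl⟩ := Submodule.mem_span_singleton.mp hy
        have e : ρ u (w + c • v₀) = (ρ u w + c • (ρ u v₀ - v₀)) + c • v₀ := by
          rw [map_add, map_smul, smul_sub]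
          abel
        rw [e]
        exact Submodule.add_mem_sup (W.add_mem (hW u hw) (W.smul_mem c (hfix' u)))
          (Submodule.smul_mem _ c (Submodule.mem_span_singleton_self v₀))
      have hlt : W < W₁ := by
        refine lt_of_le_of_ne le_sup_left ?_
        intro h
        apply hv₀
        rw [h]
        exact Submodule.mem_sup_right (Submodule.mem_span_singleton_self v₀)
      have hfin₁ : Module.finrank F (V ⧸ W₁) ≤ k := by
        have e1 := Submodule.finrank_quotient_add_finrank W
        have e2 := Submodule.finrank_quotient_add_finrank W₁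
        have e3 := Submodule.finrank_lt_finrank_of_lt hlt
        omega
      have hx := ih W₁ hW₁ hfin₁ us' hlen'' v
      rw [List.map_cons, List.prod_cons, Module.End.mul_apply]
      obtain ⟨w, hw, y, hy, hxy⟩ := Submodule.mem_sup.mp hx
      obtain ⟨c, rfl⟩ := Submodule.mem_span_singleton.mp hy
      rw [← hxy]
      have e : (ρ u - 1) (w + c • v₀) = (ρ u w - w) + c • (ρ u v₀ - v₀) := by
        simp only [LinearMap.sub_apply, Module.End.one_apply, map_add, map_smul, smul_sub]
      rw [e]
      exact W.add_mem (W.sub_mem (hW u hw) hw) (W.smul_mem c (hfix' u))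

end FixedVector

section GroupAlgebra

variable {G : Type*} [Group G] [Finite G] (p : ℕ) [Fact p.Prime]
variable (F : Type*) [Field F] [CharP F p]

/-- Left multiplication by the elements of a subgroup, as a representation on `F[G]`. -/
noncomputable def lmulRep (Q : Subgroup G) : Representation F Q (MonoidAlgebra F G) where
  toFun u := LinearMap.mulLeft F (MonoidAlgebra.of F G (u : G))
  map_one' := by
    apply LinearMap.ext
    intro x
    change MonoidAlgebra.of F G ((1 : Q) : G) * x = x
    rw [Subgroup.coe_one, map_one, one_mul]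
  map_mul' u v := by
    apply LinearMap.ext
    intro x
    change MonoidAlgebra.of F G ((u * v : Q) : G) * x =
      MonoidAlgebra.of F G (u : G) * (MonoidAlgebra.of F G (v : G) * x)
    rw [Subgroup.coe_mul, map_mul, mul_assoc]

theorem lmulRep_apply (Q : Subgroup G) (u : Q) (x : MonoidAlgebra F G) :
    lmulRep F Q u x = MonoidAlgebra.of F G (u : G) * x := rfl

theorem lmulRep_prod (Q : Subgroup G) (us : List Q) (x : MonoidAlgebra F G) :
    (us.map (fun u => lmulRep F Q u - 1)).prod x =
      (us.map (fun u : Q => MonoidAlgebra.of F G (u : G) - 1)).prod * x := by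
  induction us generalizing x with
  | nil => simp
  | cons u us ih =>
    rw [List.map_cons, List.prod_cons, List.map_cons, List.prod_cons, Module.End.mul_apply, ih,
      LinearMap.sub_apply, lmulRep_apply, Module.End.one_apply, mul_assoc, sub_mul, one_mul]

theorem finrank_monoidAlgebra : Module.finrank F (MonoidAlgebra F G) = Nat.card G := by
  rw [Module.finrank_eq_nat_card_basis (MonoidAlgebra.basis G F)]

instance finiteDimensional_monoidAlgebra : FiniteDimensional F (MonoidAlgebra F G) :=
  Module.Finite.of_basis (MonoidAlgebra.basis G F)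

/-- A product of `|G|` elements `u - 1`, with `u` in a `p`-subgroup, vanishes in `F[G]`. -/
theorem prod_of_sub_one_eq_zero (Q : Subgroup G) (hQ : IsPGroup p Q) (us : List Q)
    (h : us.length = Nat.card G) :
    (us.map (fun u : Q => MonoidAlgebra.of F G (u : G) - 1)).prod = 0 := by
  have key := prod_sub_one_mem p hQ (lmulRep F Q) (Nat.card G) ⊥ (fun u => bot_le)
    (by
      have e := Submodule.finrank_quotient_add_finrank (⊥ : Submodule F (MonoidAlgebra F G))
      rw [finrank_bot, add_zero, finrank_monoidAlgebra] at e
      exact e.le) us h 1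
  rw [Submodule.mem_bot, lmulRep_prod, mul_one] at key
  exact key

end GroupAlgebra

section Kernel

variable {G : Type*} [Group G] [Finite G] (p : ℕ) [Fact p.Prime]
variable (F : Type*) [Field F] [CharP F p]
variable (Q : Subgroup G)

/-- The span of the elements `y * (u - 1)` with `u ∈ Q` (the kernel of `F[G] → F[G/Q]` when `Q`
is normal). -/
noncomputable def augSpan : Submodule F (MonoidAlgebra F G) :=
  Submodule.span F (Set.range (fun yu : MonoidAlgebra F G × Q =>
    yu.1 * (MonoidAlgebra.of F G (yu.2 : G) - 1)))

/-- Reindexing a sum over the group by left cosets of a subgroup. -/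
theorem sum_eq_sum_coset_sum [Fintype G] [Fintype (G ⧸ Q)] [Fintype Q] {M : Type*}
    [AddCommMonoid M] (f : G → M) :
    ∑ x : G, f x = ∑ q : G ⧸ Q, ∑ u : Q, f (Quotient.out q * u) := by
  classical
  let e : (G ⧸ Q) × Q ≃ G :=
    { toFun := fun qu => Quotient.out qu.1 * qu.2
      invFun := fun x => (QuotientGroup.mk x, ⟨(Quotient.out (QuotientGroup.mk x : G ⧸ Q))⁻¹ * x, by
        rw [← QuotientGroup.eq, QuotientGroup.out_eq']⟩)
      left_inv := by
        rintro ⟨q, u⟩
        have h1 : (QuotientGroup.mk (Quotient.out q * (u : G)) : G ⧸ Q) = q := by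
          rw [QuotientGroup.mk_mul_of_mem _ u.2, QuotientGroup.out_eq']
        apply Prod.ext
        · exact h1
        · apply Subtype.ext
          simp only
          rw [h1]
          simp
      right_inv := by
        intro x
        simp }
  rw [← Fintype.sum_equiv e (fun qu => f (Quotient.out qu.1 * qu.2)) f (fun qu => rfl),
    Fintype.sum_prod_type]

/-- A combination of group elements whose coefficient sums over all cosets `sQ` vanish lies in
the span of the `y * (u - 1)`. -/
theorem sum_smul_mem_augSpan [Fintype G] [Fintype Q] (c : G → F)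
    (hc : ∀ s : G, ∑ u : Q, c (s * u) = 0) :
    ∑ x : G, c x • MonoidAlgebra.of F G x ∈ augSpan F Q := by
  classical
  haveI : Fintype (G ⧸ Q) := Fintype.ofFinite _
  rw [sum_eq_sum_coset_sum Q]
  apply Submodule.sum_mem
  intro q _
  have h1 : ∑ u : Q, c (Quotient.out q * u) • MonoidAlgebra.of F G (Quotient.out q * u) =
      ∑ u : Q, c (Quotient.out q * u) •
        (MonoidAlgebra.of F G (Quotient.out q) * (MonoidAlgebra.of F G (u : G) - 1)) := by
    have h2 : ∀ u : Q, c (Quotient.out q * u) •
        (MonoidAlgebra.of F G (Quotient.out q) * (MonoidAlgebra.of F G (u : G) - 1)) =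
        c (Quotient.out q * u) • MonoidAlgebra.of F G (Quotient.out q * u) -
          c (Quotient.out q * u) • MonoidAlgebra.of F G (Quotient.out q) := by
      intro u
      rw [mul_sub, mul_one, smul_sub, map_mul]
    simp_rw [h2]
    rw [Finset.sum_sub_distrib, ← Finset.sum_smul, hc, zero_smul, sub_zero]
  rw [h1]
  apply Submodule.sum_mem
  intro u _
  exact Submodule.smul_mem _ _ (Submodule.subset_span ⟨(MonoidAlgebra.of F G (Quotient.out q), u), rfl⟩)

/-- A central element of `F[G]` lying in the span of the `y * (u - 1)`, `u` in the `p`-subgroup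
`Q`, is nilpotent. -/
theorem pow_card_eq_zero_of_mem_augSpan (hQ : IsPGroup p Q) (a : MonoidAlgebra F G)
    (hcomm : ∀ y : MonoidAlgebra F G, a * y = y * a) (ha : a ∈ augSpan F Q) :
    a ^ Nat.card G = 0 := by
  let T : ℕ → Submodule F (MonoidAlgebra F G) := fun k =>
    Submodule.span F {z | ∃ (y : MonoidAlgebra F G) (us : List Q), us.length = k ∧
      z = y * (us.map (fun u : Q => MonoidAlgebra.of F G (u : G) - 1)).prod}
  have hstep : ∀ (k : ℕ) (z : MonoidAlgebra F G), z ∈ T k → a * z ∈ T (k + 1) := by
    intro k z hz
    induction hz using Submodule.span_induction with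
    | mem z hz =>
      obtain ⟨y, us, hlen, rfl⟩ := hz
      rw [← mul_assoc, hcomm y, mul_assoc]
      have aux : ∀ b : MonoidAlgebra F G, b ∈ augSpan F Q →
          y * (b * (us.map (fun u : Q => MonoidAlgebra.of F G (u : G) - 1)).prod) ∈ T (k + 1) := by
        intro b hb
        induction hb using Submodule.span_induction with
        | mem b hb =>
          obtain ⟨⟨y', u⟩, rfl⟩ := hb
          apply Submodule.subset_span
          refine ⟨y * y', u :: us, by simp [hlen], ?_⟩
          simp only [List.map_cons, List.prod_cons]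
          simp only [mul_assoc]
        | zero => simp
        | add b₁ b₂ _ _ h₁ h₂ =>
          rw [add_mul, mul_add]
          exact (T (k + 1)).add_mem h₁ h₂
        | smul r b _ h =>
          rw [smul_mul_assoc, mul_smul_comm]
          exact (T (k + 1)).smul_mem r h
      exact aux a ha
    | zero => simp
    | add z₁ z₂ _ _ h₁ h₂ =>
      rw [mul_add]
      exact (T (k + 1)).add_mem h₁ h₂
    | smul r z _ h =>
      rw [mul_smul_comm]
      exact (T (k + 1)).smul_mem r h
  have hpow : ∀ k : ℕ, a ^ k ∈ T k := by
    intro k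
    induction k with
    | zero =>
      apply Submodule.subset_span
      exact ⟨1, [], rfl, by simp⟩
    | succ k ih =>
      rw [pow_succ']
      exact hstep k _ ih
  have hT : T (Nat.card G) = ⊥ := by
    rw [eq_bot_iff]
    apply Submodule.span_le.mpr
    rintro z ⟨y, us, hlen, rfl⟩
    rw [prod_of_sub_one_eq_zero p F Q hQ us hlen, mul_zero]
    exact Submodule.zero_mem _
  have := hpow (Nat.card G)
  rw [hT, Submodule.mem_bot] at this
  exact this

/-- A combination of group elements with class-function coefficients is central. -/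
theorem sum_smul_of_commute [Fintype G] (c : G → F) (hc : ∀ x h : G, c (h * x * h⁻¹) = c x)
    (y : MonoidAlgebra F G) :
    (∑ x : G, c x • MonoidAlgebra.of F G x) * y = y * ∑ x : G, c x • MonoidAlgebra.of F G x := by
  induction y using MonoidAlgebra.induction_on with
  | of h =>
    rw [Finset.sum_mul, Finset.mul_sum]
    apply Fintype.sum_equiv (MulAut.conj h⁻¹).toEquiv
    intro x
    simp only [MulEquiv.toEquiv_eq_coe, EquivLike.coe_coe, MulAut.conj_apply, inv_inv]
    have h1 := hc x h⁻¹
    rw [inv_inv] at h1
    rw [h1, smul_mul_assoc, mul_smul_comm, ← map_mul, ← map_mul]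
    congr 2
    group
  | add y₁ y₂ h₁ h₂ => rw [mul_add, add_mul, h₁, h₂]
  | smul r y h => rw [mul_smul_comm, smul_mul_assoc, h]

/-- The twisted conjugation of `u ∈ Q` by `v ∈ Q` relative to `s`: it corresponds to conjugation
by `v` on the element `s * u`. -/
def cosetConj {G : Type*} [Group G] (Q : Subgroup G) [hn : Q.Normal] (s : G) (v u : Q) : Q :=
  ⟨s⁻¹ * v * s * u * (v : G)⁻¹, by
    have h1 := hn.conj_mem (v : G) v.2 s⁻¹
    rw [inv_inv] at h1
    exact Q.mul_mem (Q.mul_mem h1 u.2) (Q.inv_mem v.2)⟩

theorem cosetConj_coe {G : Type*} [Group G] (Q : Subgroup G) [hn : Q.Normal] (s : G) (v u : Q) :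
    (cosetConj Q s v u : G) = s⁻¹ * v * s * u * (v : G)⁻¹ := rfl

theorem cosetConj_isConj {G : Type*} [Group G] (Q : Subgroup G) [hn : Q.Normal] (g s : G)
    (v u : Q) (h : IsConj g (s * u)) : IsConj g (s * (cosetConj Q s v u : G)) := by
  have h1 : s * (cosetConj Q s v u : G) = (v : G) * (s * (u : G)) * (v : G)⁻¹ := by
    rw [cosetConj_coe]
    group
  rw [h1]
  exact h.trans (isConj_iff.mpr ⟨v, rfl⟩)

theorem cosetConj_one {G : Type*} [Group G] (Q : Subgroup G) [hn : Q.Normal] (s : G) (u : Q) :
    cosetConj Q s 1 u = u := by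
  apply Subtype.ext
  rw [cosetConj_coe]
  simp

theorem cosetConj_mul {G : Type*} [Group G] (Q : Subgroup G) [hn : Q.Normal] (s : G)
    (v w u : Q) : cosetConj Q s (v * w) u = cosetConj Q s v (cosetConj Q s w u) := by
  apply Subtype.ext
  rw [cosetConj_coe, cosetConj_coe, cosetConj_coe, Subgroup.coe_mul]
  group

/-- The twisted conjugation action of a normal subgroup `Q` on the set of `u ∈ Q` with `s * u`
conjugate to `g`: it corresponds to conjugation on the elements `s * u`. -/
@[instance_reducible]
def cosetAction {G : Type*} [Group G] (Q : Subgroup G) [hn : Q.Normal] (g s : G) :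
    MulAction Q {u : Q // IsConj g (s * u)} where
  smul v u := ⟨cosetConj Q s v u.1, cosetConj_isConj Q g s v u.1 u.2⟩
  one_smul u := Subtype.ext (cosetConj_one Q s u.1)
  mul_smul v w u := Subtype.ext (cosetConj_mul Q s v w u.1)

/-- Let `Q` be a normal `p`-subgroup of the finite group `G` and `g` an element none of whose
conjugates centralizes `Q`.  Then the class sum of `g` is nilpotent in `F[G]`, for `F` of
characteristic `p`. -/
theorem classSum_pow_card_eq_zero [Fintype G] [hn : Q.Normal] (hQ : IsPGroup p Q) (g : G)
    (hg : ∀ x : G, IsConj g x → x ∉ Subgroup.centralizer (Q : Set G))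
    [DecidablePred (IsConj g)] :
    (∑ x : G, (if IsConj g x then (1 : F) else 0) • MonoidAlgebra.of F G x) ^ Nat.card G = 0 := by
  classical
  haveI : Fintype Q := Fintype.ofFinite Q
  apply pow_card_eq_zero_of_mem_augSpan p F Q hQ
  · intro y
    apply sum_smul_of_commute
    intro x h
    have : IsConj g (h * x * h⁻¹) ↔ IsConj g x := by
      constructor
      · intro hx
        exact hx.trans (isConj_iff.mpr ⟨h⁻¹, by group⟩)
      · intro hx
        exact hx.trans (isConj_iff.mpr ⟨h, rfl⟩)
    simp only [this]
  · apply sum_smul_mem_augSpan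
    intro s
    -- the number of `u ∈ Q` with `s * u` conjugate to `g` is divisible by `p`
    let X := {u : Q // IsConj g (s * u)}
    let _ : MulAction Q X := cosetAction Q g s
    have hsmul : ∀ (v : Q) (u : X), (((v • u : X) : Q) : G) =
        (s⁻¹ * (v : G) * s) * (u.1 : G) * (v : G)⁻¹ := fun v u => rfl
    have hfix : IsEmpty (MulAction.fixedPoints Q X) := by
      constructor
      rintro ⟨u, hu⟩
      apply hg (s * (u.1 : G)) u.2
      rw [Subgroup.mem_centralizer_iff]
      intro v hv
      have h1 := congrArg (fun z : X => ((z : Q) : G)) (hu ⟨v, hv⟩)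
      simp only [hsmul] at h1
      calc v * (s * (u.1 : G)) = s * ((s⁻¹ * v * s) * (u.1 : G) * v⁻¹) * v := by group
        _ = s * (u.1 : G) * v := by rw [h1]
    have hmod := hQ.card_modEq_card_fixedPoints X
    have h0 : Nat.card (MulAction.fixedPoints Q X) = 0 := Nat.card_of_isEmpty
    rw [h0] at hmod
    have hdvd : p ∣ Nat.card X := (Nat.modEq_zero_iff_dvd).mp hmod
    have hsum : ∑ u : Q, (if IsConj g (s * u) then (1 : F) else 0) = (Nat.card X : F) := by
      rw [Finset.sum_boole, Nat.card_eq_fintype_card, Fintype.card_subtype]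
    rw [hsum]
    obtain ⟨m, hm⟩ := hdvd
    rw [hm, Nat.cast_mul, CharP.cast_eq_zero, zero_mul]

end Kernel

end Cfsg.Agent.Lib.Helper15.AugNilp
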