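import Mathlib
import Cfsg.Agent.Lib.Lead.BrHalfDStmt
import Cfsg.Agent.Lib.CT.Kernel
import Cfsg.Agent.Lib.CT.NormOne
import Cfsg.Agent.Lib.Helper12.Commutant

/-!
# S4504 / DCentL: an element centralizing `L = nc P` is central in `G`
-/

set_option autoImplicit false

namespace Cfsg.Agent.Lib.Helper15.BrDDCentL

open Cfsg Cfsg.Agent.Lib.Lead.BrHalf

universe u

/-- If the restriction of a character `χ` of `G` to a subgroup `L` is irreducible, then every
element centralizing `L` lies in the centre of `χ`. -/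
theorem norm_eq_of_centralizes {G : Type u} [Group G] [Finite G] (L : Subgroup G) {χ : G → ℂ}
    (hχ : IsCharacter G χ) (hirr : IsIrrCharacter ↥L (fun y : ↥L => χ (y : G))) (g : G)
    (hg : ∀ y ∈ L, g * y = y * g) : ‖χ g‖ = (χ 1).re := by
  classical
  obtain ⟨n, ρ, rfl⟩ := hχ
  let _ : Fintype ↥L := Fintype.ofFinite _
  rw [Cfsg.Agent.Lib.CT.Kernel.rep_norm_char_eq_iff]
  obtain ⟨σ, hσ⟩ : ∃ σ : Representation ℂ ↥L (Fin n → ℂ), ∀ y : ↥L, σ y = ρ (y : G) :=
    ⟨ρ.comp L.subtype, fun y => rfl⟩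
  have hchar : (fun y : ↥L => ρ.character (y : G)) = σ.character := by
    funext y
    unfold Representation.character
    rw [hσ]
  rw [hchar] at hirr
  have h1 := Cfsg.Agent.Lib.CT.NormOne.inner_self_eq_one_of_irr hirr
  have h2 := Cfsg.Agent.Lib.Helper12.Commutant.finrank_inv σ
  rw [h1] at h2
  have h3 : Module.finrank ℂ (σ.linHom σ).invariants = 1 := by exact_mod_cast h2
  have hid : (LinearMap.id : (Fin n → ℂ) →ₗ[ℂ] (Fin n → ℂ)) ∈ (σ.linHom σ).invariants := by
    rw [Cfsg.Agent.Lib.Helper12.Commutant.mem_inv_iff]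
    intro y
    rw [LinearMap.id_comp, LinearMap.comp_id]
  have hgm : ρ g ∈ (σ.linHom σ).invariants := by
    rw [Cfsg.Agent.Lib.Helper12.Commutant.mem_inv_iff]
    intro y
    rw [hσ]
    have h := congrArg ρ (hg y y.2)
    rw [map_mul, map_mul] at h
    exact h
  by_cases hV : (LinearMap.id : (Fin n → ℂ) →ₗ[ℂ] (Fin n → ℂ)) = 0
  · refine ⟨0, ?_⟩
    have h4 : ρ g = ρ g ∘ₗ LinearMap.id := (LinearMap.comp_id _).symm
    rw [h4, hV, LinearMap.comp_zero, zero_smul]
  · have hle : Submodule.span ℂ {(LinearMap.id : (Fin n → ℂ) →ₗ[ℂ] (Fin n → ℂ))} ≤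
        (σ.linHom σ).invariants := by
      rw [Submodule.span_le, Set.singleton_subset_iff]
      exact hid
    have hfr : Module.finrank ℂ
        (Submodule.span ℂ {(LinearMap.id : (Fin n → ℂ) →ₗ[ℂ] (Fin n → ℂ))}) =
        Module.finrank ℂ (σ.linHom σ).invariants := by
      rw [h3, finrank_span_singleton hV]
    have heq := Submodule.eq_of_le_of_finrank_eq hle hfr
    rw [← heq] at hgm
    obtain ⟨c, hc⟩ := Submodule.mem_span_singleton.mp hgm
    exact ⟨c, hc.symm⟩

theorem main : DCentL.{u} := by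
  intro G _ _ p _ d g hg
  exact Cfsg.Agent.Lib.CT.Kernel.mem_center_of_norm_eq d.hχ d.hfaith
    (norm_eq_of_centralizes (nc d.P) d.hχ d.hirr g hg)

end Cfsg.Agent.Lib.Helper15.BrDDCentL
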