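import Mathlib
import Cfsg.Agent.Lib.Helper76.BrRBStmt
import Cfsg.Agent.Lib.Helper81.Irr

/-!
# S4504 / INJ: the linear constituents of `ξ|_C` have distinct restrictions to `P`
-/

set_option autoImplicit false

namespace Cfsg.Agent.Lib.Helper15.BrRBINJ

open Cfsg Cfsg.Agent.Lib.Helper76.BrRB
open scoped Classical

universe u

/-- two finite sets of linear characters with the same sum are equal -/
theorem finset_eq_of_sum_eq {M : Type*} [Monoid M] (S T : Finset (M →* ℂˣ))
    (h : ∀ k : M, ∑ μ ∈ S, ((μ k : ℂˣ) : ℂ) = ∑ μ ∈ T, ((μ k : ℂˣ) : ℂ)) : S = T := by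
  have hι : Function.Injective (fun μ : M →* ℂˣ => (Units.coeHom ℂ).comp μ) := by
    intro μ μ' hh
    ext k
    have := congrArg (fun f : M →* ℂ => f k) hh
    simpa using this
  have hli := (linearIndependent_monoidHom M ℂ).comp _ hι
  have hz := linearIndependent_iff'.mp hli (S ∪ T)
    (fun μ => (if μ ∈ S then (1 : ℂ) else 0) - (if μ ∈ T then (1 : ℂ) else 0)) (by
      funext k
      simp only [Function.comp_apply, Finset.sum_apply, Pi.smul_apply, smul_eq_mul,
        Pi.zero_apply, MonoidHom.coe_comp, Units.coeHom_apply]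
      simp only [sub_mul, Finset.sum_sub_distrib, ite_mul, one_mul, zero_mul]
      rw [Finset.sum_ite_mem, Finset.sum_ite_mem, Finset.union_inter_cancel_left,
        Finset.union_inter_cancel_right, h k, sub_self])
  ext μ
  by_cases hμ : μ ∈ S ∪ T
  · have := hz μ hμ
    by_cases h1 : μ ∈ S <;> by_cases h2 : μ ∈ T <;> simp [h1, h2] at this ⊢
  · simp only [Finset.mem_union, not_or] at hμ
    simp [hμ.1, hμ.2]

theorem comm_of_prime_card {Q : Type*} [Group Q] {p : ℕ} [Fact p.Prime] (hQ : Nat.card Q = p)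
    (a b : Q) : a * b = b * a := by
  have := isCyclic_of_prime_card hQ
  obtain ⟨g, hg⟩ := IsCyclic.exists_generator (α := Q)
  obtain ⟨i, rfl⟩ := Subgroup.mem_zpowers_iff.mp (hg a)
  obtain ⟨j, rfl⟩ := Subgroup.mem_zpowers_iff.mp (hg b)
  exact (Commute.refl g).zpow_zpow i j

theorem hom_injective_of_prime_card {Q : Type*} [Group Q] {p : ℕ} [hp : Fact p.Prime]
    (hQ : Nat.card Q = p) (f : Q →* ℂˣ) (hf : f ≠ 1) : Function.Injective f := by
  have : Fact (Nat.card Q).Prime := ⟨hQ ▸ hp.out⟩
  rw [← MonoidHom.ker_eq_bot_iff]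
  rcases Subgroup.eq_bot_or_eq_top_of_prime_card f.ker with h | h
  · exact h
  · exfalso
    apply hf
    ext x
    have hx : x ∈ f.ker := by rw [h]; trivial
    rw [MonoidHom.mem_ker] at hx
    rw [hx]
    rfl

section

variable {L : Type u} [Group L]

theorem conj_mem_centralizer (P : Subgroup L) {n : L}
    (hn : n ∈ Subgroup.normalizer (P : Set L)) {k : L}
    (hk : k ∈ Subgroup.centralizer (P : Set L)) :
    n * k * n⁻¹ ∈ Subgroup.centralizer (P : Set L) := by
  rw [Subgroup.mem_centralizer_iff] at hk ⊢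
  intro u hu
  have hu' : n⁻¹ * u * n ∈ P := by
    rw [Subgroup.mem_normalizer_iff] at hn
    rw [hn]
    simpa [mul_assoc] using hu
  have h := hk _ hu'
  have := congrArg (fun t => n * t * n⁻¹) h
  simpa [mul_assoc] using this

/-- conjugation by an element of the normalizer, on the centralizer -/
def kap (P : Subgroup L) (n : L) (hn : n ∈ Subgroup.normalizer (P : Set L)) :
    ↥(Subgroup.centralizer (P : Set L)) →* ↥(Subgroup.centralizer (P : Set L)) where
  toFun k := ⟨n * (k : L) * n⁻¹, conj_mem_centralizer P hn k.2⟩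
  map_one' := by
    apply Subtype.ext
    simp
  map_mul' a b := by
    apply Subtype.ext
    simp [mul_assoc]

theorem kap_coe (P : Subgroup L) (n : L) (hn : n ∈ Subgroup.normalizer (P : Set L))
    (k : ↥(Subgroup.centralizer (P : Set L))) :
    ((kap P n hn k : ↥(Subgroup.centralizer (P : Set L))) : L) = n * (k : L) * n⁻¹ := rfl

end

theorem main : INJ.{u} := by
  intro L _ _ p _ c S ψ₀ hO hidx μ hμ μ' hμ' hres
  obtain ⟨hψ₀, hcard, hsum, horb⟩ := hO
  have hPcomm : ∀ u ∈ (c.P : Subgroup L), ∀ v ∈ (c.P : Subgroup L), u * v = v * u := by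
    intro u hu v hv
    exact congrArg Subtype.val
      (comm_of_prime_card c.hP (⟨u, hu⟩ : ↥(c.P : Subgroup L)) ⟨v, hv⟩)
  have hPC : (c.P : Subgroup L) ≤ Subgroup.centralizer ((c.P : Subgroup L) : Set L) := by
    intro u hu
    rw [Subgroup.mem_centralizer_iff]
    intro v hv
    exact hPcomm v hv u hu
  have hcf : ∀ g h : L, c.ξ (h * g * h⁻¹) = c.ξ g := fun g h =>
    Cfsg.Agent.Lib.Helper81.Irr.irr_conj (⟨c.ξ, c.hξ⟩ : IrrCharacter L) g h
  have hψinj : Function.Injective ψ₀ := hom_injective_of_prime_card c.hP ψ₀ hψ₀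
  -- stability of `S` under conjugation by the normalizer
  have hstab : ∀ (n : L) (hn : n ∈ Subgroup.normalizer ((c.P : Subgroup L) : Set L)),
      ∀ ν ∈ S, ν.comp (kap (c.P : Subgroup L) n hn) ∈ S := by
    intro n hn ν hν
    have hinj : Function.Injective
        (fun ν : ↥(Subgroup.centralizer ((c.P : Subgroup L) : Set L)) →* ℂˣ =>
          ν.comp (kap (c.P : Subgroup L) n hn)) := by
      intro ν₁ ν₂ hh
      apply MonoidHom.ext
      intro k
      have := congrArg (fun f : ↥(Subgroup.centralizer ((c.P : Subgroup L) : Set L)) →* ℂˣ =>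
        f (kap (c.P : Subgroup L) n⁻¹ (inv_mem hn) k)) hh
      have hk : kap (c.P : Subgroup L) n hn (kap (c.P : Subgroup L) n⁻¹ (inv_mem hn) k) = k := by
        apply Subtype.ext
        rw [kap_coe, kap_coe]
        simp [mul_assoc]
      simp only [MonoidHom.comp_apply, hk] at this
      exact this
    have hS : S.image (fun ν : ↥(Subgroup.centralizer ((c.P : Subgroup L) : Set L)) →* ℂˣ =>
        ν.comp (kap (c.P : Subgroup L) n hn)) = S := by
      apply finset_eq_of_sum_eq
      intro k
      rw [Finset.sum_image (fun a _ b _ hab => hinj hab)]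
      simp only [MonoidHom.comp_apply]
      rw [← hsum, ← hsum, kap_coe, hcf]
    rw [← hS]
    exact Finset.mem_image_of_mem _ hν
  have hresEq : μ.comp (Subgroup.inclusion hPC) = μ'.comp (Subgroup.inclusion hPC) := by
    apply MonoidHom.ext
    intro u
    exact hres (Subgroup.inclusion hPC u) u.2
  have hinjOn : Set.InjOn
      (fun ν : ↥(Subgroup.centralizer ((c.P : Subgroup L) : Set L)) →* ℂˣ =>
        ν.comp (Subgroup.inclusion hPC)) (S : Set _) := by
    rw [← Finset.card_image_iff]
    apply le_antisymm Finset.card_image_le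
    rw [hcard, ← hidx]
    -- the orbit of `μ`
    obtain ⟨n₁, hn₁, hμorb⟩ := horb μ hμ
    have hmemN : ∀ (n : L), n ∈ Subgroup.normalizer ((c.P : Subgroup L) : Set L) →
        ∀ u : L, u ∈ (c.P : Subgroup L) → n * u * n⁻¹ ∈ (c.P : Subgroup L) :=
      fun n hn u hu => (Subgroup.mem_normalizer_iff.mp hn u).mp hu
    have hF : ∀ q : ↥(Subgroup.normalizer ((c.P : Subgroup L) : Set L)) ⧸
        (Subgroup.centralizer ((c.P : Subgroup L) : Set L)).subgroupOf
          (Subgroup.normalizer ((c.P : Subgroup L) : Set L)),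
        (μ.comp (kap (c.P : Subgroup L) (q.out : L) q.out.2)).comp (Subgroup.inclusion hPC) ∈
          S.image (fun ν : ↥(Subgroup.centralizer ((c.P : Subgroup L) : Set L)) →* ℂˣ =>
            ν.comp (Subgroup.inclusion hPC)) := fun q =>
      Finset.mem_image_of_mem _ (hstab _ q.out.2 μ hμ)
    have hval : ∀ (n : L) (hn : n ∈ Subgroup.normalizer ((c.P : Subgroup L) : Set L))
        (u : ↥(c.P : Subgroup L)),
        μ (kap (c.P : Subgroup L) n hn (Subgroup.inclusion hPC u)) =
          ψ₀ ⟨n₁ * (n * (u : L) * n⁻¹) * n₁⁻¹, hmemN n₁ hn₁ _ (hmemN n hn _ u.2)⟩ :=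
      fun n hn u => hμorb ⟨n * (u : L) * n⁻¹, hmemN n hn _ u.2⟩ _ _ rfl rfl
    have hFinj : Function.Injective
        (fun q : ↥(Subgroup.normalizer ((c.P : Subgroup L) : Set L)) ⧸
          (Subgroup.centralizer ((c.P : Subgroup L) : Set L)).subgroupOf
            (Subgroup.normalizer ((c.P : Subgroup L) : Set L)) =>
          (⟨_, hF q⟩ : ↥(S.image
            (fun ν : ↥(Subgroup.centralizer ((c.P : Subgroup L) : Set L)) →* ℂˣ =>
              ν.comp (Subgroup.inclusion hPC))))) := by
      intro q q' hqq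
      have hqq' := congrArg Subtype.val hqq
      simp only at hqq'
      rw [← QuotientGroup.out_eq' q, ← QuotientGroup.out_eq' q', QuotientGroup.eq,
        Subgroup.mem_subgroupOf, Subgroup.mem_centralizer_iff]
      intro u hu
      have h1 := congrArg (fun f : ↥(c.P : Subgroup L) →* ℂˣ => f ⟨u, hu⟩) hqq'
      simp only [MonoidHom.comp_apply] at h1
      rw [hval _ q.out.2, hval _ q'.out.2] at h1
      have h2 := congrArg Subtype.val (hψinj h1)
      simp only at h2
      have h3 : (q.out : L) * u * (q.out : L)⁻¹ = (q'.out : L) * u * (q'.out : L)⁻¹ := by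
        have := congrArg (fun t => n₁⁻¹ * t * n₁) h2
        simpa [mul_assoc] using this
      have h4 := congrArg (fun t => (q.out : L)⁻¹ * t * (q'.out : L)) h3
      simpa [mul_assoc] using h4
    have hle := Nat.card_le_card_of_injective _ hFinj
    have h2 : Nat.card ↥(S.image
        (fun ν : ↥(Subgroup.centralizer ((c.P : Subgroup L) : Set L)) →* ℂˣ =>
          ν.comp (Subgroup.inclusion hPC))) = (S.image
        (fun ν : ↥(Subgroup.centralizer ((c.P : Subgroup L) : Set L)) →* ℂˣ =>
          ν.comp (Subgroup.inclusion hPC))).card := by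
      rw [Nat.card_eq_fintype_card, Fintype.card_coe]
    rw [h2] at hle
    exact hle
  exact hinjOn hμ hμ' hresEq

end Cfsg.Agent.Lib.Helper15.BrRBINJ
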