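import Mathlib
import Cfsg.Agent.Lib.Helper41.TMStmt

/-! S5987 piece BADA (minus form): an element of `Omega-` of order `r` with `b` blocks fixes no
totally singular `m`-space under the arithmetic hypothesis. -/

set_option autoImplicit false
universe u

namespace Cfsg.Agent.Lib.Helper15.TMBADA

open Cfsg.Agent.Lib.Helper41.TMStmt
open Cfsg.Agent.Lib.Helper37.HypStmt (cc IPos)
open Cfsg.Agent.Lib.Helper44.TSStmt (Fac NumTypes)
open Cfsg.Agent.Lib.Helper45.OMiStmt (M Aniso FxM NDegM StabM)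
open Cfsg.Agent.Lib.Helper41.TMTwoStmt (TSubM PlusM FixTSM)
open scoped Matrix

theorem mem_iso_of_mem_omega {F : Type u} [Field F] {d : ℕ} (a₀ b₀ : F)
    (x : Matrix.GeneralLinearGroup (M d) F)
    (hx : x ∈ Cfsg.Geo.omegaGL (Cfsg.quadFormMinus (d - 1) F a₀ b₀)) :
    x ∈ Cfsg.isometryGroup F (Cfsg.quadFormMinus (d - 1) F a₀ b₀) := by
  unfold Cfsg.Geo.omegaGL at hx
  obtain ⟨y, -, hy⟩ := Subgroup.mem_map.1 hx
  rw [← hy]
  exact y.2

theorem main (hED : EltDim.{u}) (hFix : FixND.{u}) (hTs : TsHalf.{u}) (hR : RImg.{u})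
    (hInv : InvDim.{u}) : BadA.{u} := by
  intro F _ _ a₀ b₀ hab p _ _ d m hd r _ hr2 hrp b hb hle hpar hcond
  obtain ⟨x, hxO, hxr, hxF⟩ := hED F a₀ b₀ hab p d hd r hr2 hrp b hb hle hpar
  refine ⟨x, hxO, hxr, ?_⟩
  rintro ⟨W, hWm, hWts, hWst⟩
  have hxI := mem_iso_of_mem_omega a₀ b₀ x hxO
  obtain ⟨R, hRW, hRst, hRF, hRdim, -⟩ := hR F a₀ b₀ hab p d r hrp x hxr W hWst
  obtain ⟨k, hk⟩ := hInv F a₀ b₀ hab p d r hrp x hxr R hRst hRF
  have hND := hFix F a₀ b₀ hab p d r hrp x hxI hxr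
  have hhalf := hTs F a₀ b₀ hab d (FxM (x : Matrix (M d) (M d) F))
    (W ⊓ FxM (x : Matrix (M d) (M d) F)) hND inf_le_right (fun w hw => hWts w hw.1)
  rw [hxF] at hhalf
  rw [hWm] at hRdim
  have hle' : orderOf ((Fintype.card F : ℕ) : ZMod r) * k ≤ m := by rw [← hk]; omega
  have h := hcond k hle'
  rw [← hk] at h
  omega

end Cfsg.Agent.Lib.Helper15.TMBADA
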