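import Mathlib
import Cfsg.Agent.Lib.Helper41.EMStmt
import Cfsg.Agent.Lib.Helper41.TMStmt
import Cfsg.Agent.Lib.Helper15.TMBADA

/-!
# S5990 / B2E (call by helper41; minus-form port of `Helper15.EPB2E`)

If `CondEM` fails and `AEM` holds, the element of `TMStmt.EltDim` with `(2d) / c` blocks fixes no
elliptic `m`-space of the minus form.
-/

set_option autoImplicit false
set_option maxHeartbeats 800000

universe u

open scoped Matrix

namespace Cfsg.Agent.Lib.Helper15.EMB2E

open Cfsg.Agent.Lib.Helper41.EMStmt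
open Cfsg.Agent.Lib.Helper37.HypStmt (cc IPos)
open Cfsg.Agent.Lib.Helper45.OMiStmt (M Aniso FxM NDegM StabM)
open Cfsg.Agent.Lib.Helper41.TMTwoStmt (TSubM PlusM)
open Cfsg.Agent.Lib.Helper41.TMStmt (EltDim HalfOdd TypeEven TwoMinusG Perp)

/-- the arithmetic core (minus form) -/
theorem arith (d m i : ℕ) (hi : 0 < i) (hm2 : 2 ≤ m) (hmd : m + 2 ≤ 2 * d) (hAE : AEM d m i)
    (he : m % cc i ≤ (2 * d) % cc i)
    (hodd : Odd i → 0 < m % cc i)
    (hev0 : Even i → m % cc i = 0 → Odd (m / i))
    (hevk : Even i → m % cc i = (2 * d) % cc i → 0 < (2 * d) % cc i →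
      Even ((2 * d - m) / i)) :
    CondEM d m i := by
  unfold AEM at hAE
  obtain ⟨hcle, hAE2⟩ := hAE
  rcases Nat.even_or_odd i with heven | hodd'
  · have hc : cc i = i := by unfold cc; rw [if_pos heven]
    rw [hc] at hAE2 he hev0 hevk hcle
    unfold CondEM
    rw [hc]
    right
    refine ⟨heven, ?_⟩
    rcases Nat.eq_zero_or_pos (m % i) with h0 | hpos
    · have hoddmi := hev0 heven h0
      have hile : i ≤ m := Nat.le_of_dvd (by omega) (Nat.dvd_of_mod_eq_zero h0)
      rcases Nat.eq_zero_or_pos ((2 * d) % i) with hk0 | hkpos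
      · left
        exact ⟨hk0, Or.inr ⟨h0, hoddmi⟩⟩
      · right
        exact ⟨hkpos, hile, Or.inr (Or.inl ⟨h0, hoddmi⟩)⟩
    · have hkpos : 0 < (2 * d) % i := by omega
      have hile : i ≤ m := by
        by_contra hlt
        have hlt' : m < i := by omega
        have hmm : m % i = m := Nat.mod_eq_of_lt hlt'
        rcases hAE2 with h | h | ⟨h1, -, h2⟩
        · omega
        · omega
        · have h3 := hevk heven (by omega) (by omega)
          have h4 := Nat.div_add_mod (2 * d) i
          have h5 : 2 * d - m = i * (2 * d / i) := by omega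
          rw [h5, Nat.mul_div_cancel_left _ hi] at h3
          exact (Nat.not_even_iff_odd.mpr h2) h3
      right
      refine ⟨hkpos, hile, ?_⟩
      rcases Nat.lt_or_ge (m % i) ((2 * d) % i) with hlt | hge
      · left
        exact ⟨hpos, hlt⟩
      · have hek : m % i = (2 * d) % i := le_antisymm he hge
        right
        right
        refine ⟨hek, ?_⟩
        have h3 := hevk heven hek hkpos
        have h4 := Nat.div_add_mod (2 * d) i
        have h6 := Nat.div_add_mod m i
        have hlt : i * (m / i) < i * (2 * d / i) := by omega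
        have hμ : m / i < 2 * d / i := Nat.lt_of_mul_lt_mul_left hlt
        have h5 : 2 * d - m = i * (2 * d / i - m / i) := by
          rw [Nat.mul_sub]
          omega
        have h7 : 2 * d + m - 2 * ((2 * d) % i) = i * (2 * d / i + m / i) := by
          rw [Nat.mul_add]
          omega
        rw [h5, Nat.mul_div_cancel_left _ hi] at h3
        rw [h7, Nat.mul_div_cancel_left _ hi]
        obtain ⟨t, ht⟩ := h3
        exact ⟨t + m / i, by omega⟩
  · have hpos := hodd hodd'
    unfold CondEM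
    left
    refine ⟨hodd', Or.inr ⟨?_, hpos, he⟩⟩
    by_contra hcm
    have hcm' : m < cc i := by omega
    have hmm : m % cc i = m := Nat.mod_eq_of_lt hcm'
    rcases hAE2 with h | h | ⟨h1, h2, -⟩
    · omega
    · omega
    · exact (Nat.not_even_iff_odd.mpr hodd') h2

theorem main (hIPos : IPos.{u}) (hED : EltDim.{u}) (hHO : HalfOdd.{u}) (hTE : TypeEven.{u})
    (hTwo : TwoMinusG.{u}) (hPerp : Perp.{u}) (hDO : DimObsA.{u}) : B2E.{u} := by
  intro F _ _ a₀ b₀ hab p _ _ d m hd hm2 hmev hmd r _ hr2 hrp hAE hnC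
  classical
  have hd1 : 1 ≤ d := by omega
  have hi : 0 < orderOf ((Fintype.card F : ℕ) : ZMod r) := hIPos F p r hrp
  have hcpos : 0 < cc (orderOf ((Fintype.card F : ℕ) : ZMod r)) := by
    unfold cc
    split_ifs <;> omega
  have hcle : cc (orderOf ((Fintype.card F : ℕ) : ZMod r)) ≤ 2 * d := hAE.1
  have hdm := Nat.div_add_mod' (2 * d) (cc (orderOf ((Fintype.card F : ℕ) : ZMod r)))
  have hklt := Nat.mod_lt (2 * d) hcpos
  have hb1 : 1 ≤ 2 * d / cc (orderOf ((Fintype.card F : ℕ) : ZMod r)) := Nat.div_pos hcle hcpos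
  have hble : (2 * d / cc (orderOf ((Fintype.card F : ℕ) : ZMod r))) *
      cc (orderOf ((Fintype.card F : ℕ) : ZMod r)) ≤ 2 * d := Nat.div_mul_le_self _ _
  have htype : (2 * d / cc (orderOf ((Fintype.card F : ℕ) : ZMod r))) *
      cc (orderOf ((Fintype.card F : ℕ) : ZMod r)) = 2 * d →
      Even (orderOf ((Fintype.card F : ℕ) : ZMod r)) ∧
        Odd (2 * d / cc (orderOf ((Fintype.card F : ℕ) : ZMod r))) := by
    intro hbc
    have hk0 : (2 * d) % cc (orderOf ((Fintype.card F : ℕ) : ZMod r)) = 0 := by omega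
    rcases Nat.even_or_odd (orderOf ((Fintype.card F : ℕ) : ZMod r)) with heven | hodd
    · refine ⟨heven, ?_⟩
      have hc : cc (orderOf ((Fintype.card F : ℕ) : ZMod r)) =
          orderOf ((Fintype.card F : ℕ) : ZMod r) := by unfold cc; rw [if_pos heven]
      by_contra hne
      apply hnC
      unfold CondEM
      right
      refine ⟨heven, Or.inl ⟨hk0, Or.inl ?_⟩⟩
      rw [hc] at hne
      exact Nat.not_odd_iff_even.mp hne
    · exfalso
      apply hnC
      unfold CondEM
      left
      exact ⟨hodd, Or.inl hk0⟩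
  obtain ⟨x, hxO, hxr, hxF⟩ := hED F a₀ b₀ hab p d (by omega) r hr2 hrp _ hb1 hble htype
  have hxF' : Module.finrank F ↥(FxM (x : Matrix (M d) (M d) F)) =
      (2 * d) % cc (orderOf ((Fintype.card F : ℕ) : ZMod r)) := by omega
  have hVdim : Module.finrank F (M d → F) = 2 * d := by
    rw [Module.finrank_fintype_fun_eq_card]
    simp only [Fintype.card_sum, Fintype.card_fin]
    omega
  have hx1 : x ≠ 1 := by
    rintro rfl
    have h1 : FxM ((1 : Matrix.GeneralLinearGroup (M d) F) : Matrix (M d) (M d) F) = ⊤ := by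
      unfold FxM
      rw [Units.val_one, Matrix.toLin'_one, sub_self, LinearMap.ker_zero]
    rw [h1, finrank_top, hVdim] at hxF'
    omega
  have hxord : orderOf x = r := orderOf_eq_prime hxr hx1
  refine ⟨x, hxO, hxord, ?_⟩
  intro W hW hSt
  obtain ⟨hWm, hWnd, hWnp⟩ := hW
  have hxI := Cfsg.Agent.Lib.Helper15.TMBADA.mem_iso_of_mem_omega a₀ b₀ x hxO
  have hdvd := hDO F a₀ b₀ hab p d r hr2 hrp x hxI hxr W hSt hWnd
  have he_le_k : Module.finrank F ↥(W ⊓ FxM (x : Matrix (M d) (M d) F)) ≤
      (2 * d) % cc (orderOf ((Fintype.card F : ℕ) : ZMod r)) := by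
    rw [← hxF']
    exact Submodule.finrank_mono inf_le_right
  have he_le_m : Module.finrank F ↥(W ⊓ FxM (x : Matrix (M d) (M d) F)) ≤ m := by
    rw [← hWm]
    exact Submodule.finrank_mono inf_le_left
  have he : m % cc (orderOf ((Fintype.card F : ℕ) : ZMod r)) =
      Module.finrank F ↥(W ⊓ FxM (x : Matrix (M d) (M d) F)) := by
    rw [hWm] at hdvd
    obtain ⟨t, ht⟩ := hdvd
    have h1 : m = cc (orderOf ((Fintype.card F : ℕ) : ZMod r)) * t +
        Module.finrank F ↥(W ⊓ FxM (x : Matrix (M d) (M d) F)) := by omega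
    have h2 : (cc (orderOf ((Fintype.card F : ℕ) : ZMod r)) * t +
        Module.finrank F ↥(W ⊓ FxM (x : Matrix (M d) (M d) F))) %
        cc (orderOf ((Fintype.card F : ℕ) : ZMod r)) =
        Module.finrank F ↥(W ⊓ FxM (x : Matrix (M d) (M d) F)) := by
      rw [Nat.mul_add_mod]
      exact Nat.mod_eq_of_lt (by omega)
    rw [← h1] at h2
    exact h2
  apply hnC
  apply arith d m _ hi hm2 hmd hAE
  · rw [he]
    exact he_le_k
  · -- `i` odd: `e > 0`
    intro hodd
    rw [he]
    by_contra h0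
    have h0' : Module.finrank F ↥(W ⊓ FxM (x : Matrix (M d) (M d) F)) = 0 := by omega
    have hbot : W ⊓ FxM (x : Matrix (M d) (M d) F) = ⊥ := Submodule.finrank_eq_zero.mp h0'
    obtain ⟨U, hU, -, hts, h2⟩ := hHO F a₀ b₀ hab p d r hr2 hrp hodd x hxI hxr W hSt hWnd hbot
    exact hWnp ⟨U, hU, hts, h2⟩
  · -- `i` even, `e = 0`
    intro heven h0
    rw [he] at h0
    have hbot : W ⊓ FxM (x : Matrix (M d) (M d) F) = ⊥ := Submodule.finrank_eq_zero.mp h0
    have hT := hTE F a₀ b₀ hab p d r hr2 hrp heven x hxI hxr W hSt hWnd hbot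
    rw [hWm] at hT
    exact Nat.not_even_iff_odd.mp (fun h => hWnp (hT.mpr h))
  · -- `i` even, `e = k > 0`
    intro heven hek hkpos
    rw [he] at hek
    have hek' : Module.finrank F ↥(W ⊓ FxM (x : Matrix (M d) (M d) F)) =
        Module.finrank F ↥(FxM (x : Matrix (M d) (M d) F)) := by rw [hxF']; exact hek
    have hFW : W ⊓ FxM (x : Matrix (M d) (M d) F) = FxM (x : Matrix (M d) (M d) F) :=
      Submodule.eq_of_le_of_finrank_eq inf_le_right hek'
    have hFle : FxM (x : Matrix (M d) (M d) F) ≤ W := by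
      rw [← hFW]
      exact inf_le_left
    obtain ⟨Y, hWY, hYnd, hWYbot, hdimY, hYst⟩ := hPerp F a₀ b₀ hab d hd1 W hWnd
    have hYstab := hYst x hxI hSt
    have hYF : Y ⊓ FxM (x : Matrix (M d) (M d) F) = ⊥ := by
      rw [eq_bot_iff, ← hWYbot]
      exact fun v hv => ⟨hFle hv.2, hv.1⟩
    have hTY := hTE F a₀ b₀ hab p d r hr2 hrp heven x hxI hxr Y hYstab hYnd hYF
    have hsupWY : W ⊔ Y = ⊤ := by
      apply Submodule.eq_top_of_finrank_eq
      have h1 := Submodule.finrank_sup_add_finrank_inf_eq W Y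
      rw [hWYbot, finrank_bot, add_zero] at h1
      rw [h1, hVdim]
      exact hdimY
    have hYplus : PlusM d F a₀ b₀ Y := by
      rcases hTwo F a₀ b₀ hab d hd1 W Y hWnd hYnd hWY hsupWY (by rw [hWm]; exact hmev) with
        h | h
      · exact absurd h hWnp
      · exact h
    have hevY := hTY.mp hYplus
    have h9 : Module.finrank F ↥W + Module.finrank F ↥Y = 2 * d := hdimY
    rw [hWm] at h9
    have hYdim : Module.finrank F ↥Y = 2 * d - m := by omega
    rw [hYdim] at hevY
    exact hevY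

end Cfsg.Agent.Lib.Helper15.EMB2E
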