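import Mathlib
import Cfsg.Agent.Lib.Helper15.BGMain

/-!
Garrison's theorem: the nilpotent (Fitting) length of a finite solvable group is at most the number
of its irreducible character degrees.  Consequence of the Broline–Garrison theorem: the character
degree set of `G / F(G)` is a proper subset of that of `G` when `G` is not nilpotent.
-/

set_option autoImplicit false
set_option linter.style.haveILetI false
set_option linter.unusedSectionVars false

namespace Cfsg.Agent.Lib.Helper15.Garrison

open Cfsg Cfsg.Agent.Lib.CT Cfsg.Agent.Lib.CT.Wedderburn Cfsg.Agent.Lib.CT.Ops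
  Cfsg.Agent.Lib.Helper15.BGMain

universe u v

/-- A normal series of length `n` with nilpotent factors. -/
def Chain (G : Type u) [Group G] (n : ℕ) : Prop :=
  ∃ N : Fin (n + 1) → Subgroup G, N 0 = ⊥ ∧ N (Fin.last n) = ⊤ ∧ Monotone N ∧
    (∀ i, (N i).Normal) ∧
    ∀ i : Fin n, ∀ _ : ((N i.castSucc).subgroupOf (N i.succ)).Normal,
      Group.IsNilpotent (↥(N i.succ) ⧸ (N i.castSucc).subgroupOf (N i.succ))

theorem chain_of_nilpotent (G : Type u) [Group G] [hG : Group.IsNilpotent G] (k : ℕ) :
    Chain G (k + 1) := by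
  classical
  refine ⟨fun i => if i = 0 then ⊥ else ⊤, by simp, ?_, ?_, ?_, ?_⟩
  · have : Fin.last (k + 1) ≠ 0 := by
      intro h
      have := congrArg Fin.val h
      simp at this
    simp [this]
  · intro i j hij
    simp only
    by_cases hi : i = 0
    · rw [if_pos hi]; exact bot_le
    · have hj : j ≠ 0 := by
        rintro rfl
        exact hi (Fin.le_zero_iff.mp hij)
      rw [if_neg hi, if_neg hj]
  · intro i
    simp only
    split_ifs <;> infer_instance
  · intro i h
    exact Group.nilpotent_of_surjective (QuotientGroup.mk' _) (QuotientGroup.mk'_surjective _)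

theorem nilp_quot_of_eq {G : Type u} [Group G] (A B A' B' : Subgroup G) (hA : A = A')
    (hB : B = B')
    (h : ∀ _ : (B'.subgroupOf A').Normal, Group.IsNilpotent (↥A' ⧸ B'.subgroupOf A')) :
    ∀ _ : (B.subgroupOf A).Normal, Group.IsNilpotent (↥A ⧸ B.subgroupOf A) := by
  subst hA; subst hB; exact h

theorem nilp_quot_comap {G : Type u} {H : Type v} [Group G] [Group H] (π : G →* H)
    (hπ : Function.Surjective π) (A B : Subgroup H) [hB : B.Normal]
    (h : Group.IsNilpotent (↥A ⧸ B.subgroupOf A)) :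
    Group.IsNilpotent (↥(A.comap π) ⧸ (B.comap π).subgroupOf (A.comap π)) := by
  let φ : A.comap π →* A := π.subgroupComap A
  have hφ : Function.Surjective φ := MonoidHom.subgroupComap_surjective_of_surjective π A hπ
  let ψ : A.comap π →* ↥A ⧸ B.subgroupOf A := (QuotientGroup.mk' (B.subgroupOf A)).comp φ
  have hψ : Function.Surjective ψ := (QuotientGroup.mk'_surjective _).comp hφ
  have hker : ψ.ker = (B.comap π).subgroupOf (A.comap π) := by
    ext x
    rw [MonoidHom.mem_ker, Subgroup.mem_subgroupOf, Subgroup.mem_comap]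
    show (QuotientGroup.mk' (B.subgroupOf A)) (φ x) = 1 ↔ _
    rw [QuotientGroup.mk'_apply, QuotientGroup.eq_one_iff, Subgroup.mem_subgroupOf]
    rfl
  have e : A.comap π ⧸ ψ.ker ≃* ↥A ⧸ B.subgroupOf A :=
    QuotientGroup.quotientKerEquivOfSurjective ψ hψ
  haveI := h
  have h2 : Group.IsNilpotent (A.comap π ⧸ ψ.ker) := Group.nilpotent_of_mulEquiv e.symm
  have e2 : A.comap π ⧸ ψ.ker ≃* ↥(A.comap π) ⧸ (B.comap π).subgroupOf (A.comap π) :=
    QuotientGroup.quotientMulEquivOfEq hker
  haveI := h2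
  exact Group.nilpotent_of_mulEquiv e2

theorem chain_pull {G : Type u} [Group G] (F : Subgroup G) [F.Normal]
    (hF : Group.IsNilpotent F) (k : ℕ) (h : Chain (G ⧸ F) k) : Chain G (k + 1) := by
  obtain ⟨Nb, h0, hlast, hmono, hnorm, hq⟩ := h
  refine ⟨(Fin.cons ⊥ (fun i => (Nb i).comap (QuotientGroup.mk' F)) :
    Fin (k + 1 + 1) → Subgroup G), Fin.cons_zero _ _, ?_, ?_, ?_, ?_⟩
  · rw [← Fin.succ_last, Fin.cons_succ, hlast, Subgroup.comap_top]
  · intro i j hij
    induction i using Fin.cases with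
    | zero => rw [Fin.cons_zero]; exact bot_le
    | succ i' =>
      induction j using Fin.cases with
      | zero => exact absurd hij (by simp)
      | succ j' =>
        rw [Fin.cons_succ, Fin.cons_succ]
        exact Subgroup.comap_mono (hmono (Fin.succ_le_succ_iff.mp hij))
  · intro i
    induction i using Fin.cases with
    | zero => rw [Fin.cons_zero]; infer_instance
    | succ i' => rw [Fin.cons_succ]; exact (hnorm i').comap _
  · intro i
    induction i using Fin.cases with
    | zero =>
      refine nilp_quot_of_eq _ _ F ⊥ ?_ ?_ ?_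
      · rw [Fin.cons_succ, h0, MonoidHom.comap_bot, QuotientGroup.ker_mk']
      · rw [Fin.castSucc_zero, Fin.cons_zero]
      · intro _
        haveI := hF
        exact Group.nilpotent_of_surjective (QuotientGroup.mk' _) (QuotientGroup.mk'_surjective _)
    | succ j =>
      refine nilp_quot_of_eq _ _ ((Nb j.succ).comap (QuotientGroup.mk' F))
        ((Nb j.castSucc).comap (QuotientGroup.mk' F)) ?_ ?_ ?_
      · rw [Fin.cons_succ]
      · rw [← Fin.succ_castSucc, Fin.cons_succ]
      · intro _
        haveI := hnorm j.castSucc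
        exact nilp_quot_comap (QuotientGroup.mk' F) (QuotientGroup.mk'_surjective F) _ _
          (hq j inferInstance)

/-- The set of irreducible character degrees. -/
def cdSet (G : Type u) [Group G] : Set ℕ :=
  {d | ∃ χ : IrrCharacter G, charDegree (χ : G → ℂ) = d}

theorem cdSet_finite (G : Type u) [Group G] [Finite G] : (cdSet G).Finite := by
  haveI := finite_irrCharacter G
  have : cdSet G = Set.range (fun χ : IrrCharacter G => charDegree (χ : G → ℂ)) := rfl
  rw [this]; exact Set.finite_range _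

theorem cdSet_nonempty (G : Type u) [Group G] : (cdSet G).Nonempty :=
  ⟨_, ⟨⟨_, isIrrCharacter_one⟩, rfl⟩⟩

theorem ncard_cd_quot_lt (G : Type u) [Group G] [Finite G] (hsolv : Group.IsSolvable G)
    (hnil : ¬ Group.IsNilpotent G) (F : Subgroup G) [F.Normal]
    (hF : F = Cfsg.fittingSubgroup G) : (cdSet (G ⧸ F)).ncard < (cdSet G).ncard := by
  classical
  haveI := hsolv
  apply Set.ncard_lt_ncard _ (cdSet_finite G)
  haveI : Finite (IrrCharacter (G ⧸ F)) := finite_irrCharacter _
  haveI : Nonempty (IrrCharacter (G ⧸ F)) := ⟨⟨_, isIrrCharacter_one⟩⟩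
  obtain ⟨χb₀, hmax⟩ :=
    Finite.exists_max (fun χb : IrrCharacter (G ⧸ F) => charDegree (χb : G ⧸ F → ℂ))
  have hsub : cdSet (G ⧸ F) ⊆ cdSet G := by
    rintro d ⟨χb, rfl⟩
    exact ⟨⟨fun g => χb.1 (g : G ⧸ F), Kernel.isIrrCharacter_inflation F χb.2⟩, rfl⟩
  rw [Set.ssubset_iff_of_subset hsub]
  have hχ₀ : IsIrrCharacter G (fun g => χb₀.1 (g : G ⧸ F)) :=
    Kernel.isIrrCharacter_inflation F χb₀.2
  obtain ⟨K, hKn, hK⟩ := Kernel.exists_normal_ker (isCharacter_of_irr hχ₀)
  haveI := hKn
  have hFK : F ≤ K := by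
    intro f hf
    rw [hK]
    exact Kernel.inflation_apply_of_mem F χb₀.1 hf
  have hcond : ¬ K ≤ Cfsg.fittingSubgroup G ∨
      (K = Cfsg.fittingSubgroup G ∧ Group.IsSolvable (G ⧸ K) ∧ K ≠ ⊤) := by
    by_cases hKF : K ≤ Cfsg.fittingSubgroup G
    · right
      have hKeq : K = Cfsg.fittingSubgroup G := le_antisymm hKF (hF ▸ hFK)
      refine ⟨hKeq, inferInstance, ?_⟩
      intro htop
      apply hnil
      have h1 : Group.IsNilpotent (Cfsg.fittingSubgroup G) :=
        Cfsg.Agent.Lib.Helper71.Fitting.fitting_isNilpotent G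
      rw [← hKeq, htop] at h1
      haveI := h1
      exact Group.nilpotent_of_mulEquiv (Subgroup.topEquiv : (⊤ : Subgroup G) ≃* G)
    · left; exact hKF
  obtain ⟨ψ, hψ, hdeg, -⟩ := broline_garrison hχ₀ K hK hcond
  refine ⟨charDegree ψ, ⟨⟨ψ, hψ⟩, rfl⟩, ?_⟩
  rintro ⟨χb, hχb⟩
  have h1 : charDegree (χb : G ⧸ F → ℂ) ≤ charDegree (χb₀ : G ⧸ F → ℂ) := hmax χb
  have h2 : charDegree (fun g : G => χb₀.1 (g : G ⧸ F)) < charDegree ψ :=
    charDegree_lt hχ₀ hψ hdeg
  have h3 : charDegree (fun g : G => χb₀.1 (g : G ⧸ F)) = charDegree (χb₀ : G ⧸ F → ℂ) := rfl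
  omega

theorem garrison_aux : ∀ (n : ℕ) (G : Type u) [Group G] [Finite G], Group.IsSolvable G →
    (cdSet G).ncard ≤ n + 1 → Chain G (n + 1) := by
  intro n
  induction n with
  | zero =>
    intro G _ _ hsolv hcd
    by_cases hnil : Group.IsNilpotent G
    · exact chain_of_nilpotent G 0
    · exfalso
      haveI := Cfsg.Agent.Lib.Helper71.Fitting.fitting_normal G
      have hlt := ncard_cd_quot_lt G hsolv hnil (Cfsg.fittingSubgroup G) rfl
      have hpos : 0 < (cdSet (G ⧸ Cfsg.fittingSubgroup G)).ncard :=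
        (Set.ncard_pos (cdSet_finite _)).mpr (cdSet_nonempty _)
      omega
  | succ m IH =>
    intro G _ _ hsolv hcd
    by_cases hnil : Group.IsNilpotent G
    · exact chain_of_nilpotent G (m + 1)
    · haveI := Cfsg.Agent.Lib.Helper71.Fitting.fitting_normal G
      have hlt := ncard_cd_quot_lt G hsolv hnil (Cfsg.fittingSubgroup G) rfl
      haveI := hsolv
      exact chain_pull (Cfsg.fittingSubgroup G)
        (Cfsg.Agent.Lib.Helper71.Fitting.fitting_isNilpotent G) (m + 1)
        (IH (G ⧸ Cfsg.fittingSubgroup G) inferInstance (by omega))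

theorem garrison (G : Type u) [Group G] [Finite G] (hsolv : Group.IsSolvable G) (n : ℕ)
    (hcd : (cdSet G).ncard = n) : Chain G n := by
  have hpos : 0 < n := by
    rw [← hcd]; exact (Set.ncard_pos (cdSet_finite G)).mpr (cdSet_nonempty G)
  obtain ⟨m, rfl⟩ : ∃ m, n = m + 1 := ⟨n - 1, by omega⟩
  exact garrison_aux m G hsolv (by omega)

end Cfsg.Agent.Lib.Helper15.Garrison
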