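import Mathlib
import Cfsg.Agent.Lib.Helper44.MFldStmt
import Cfsg.Agent.Lib.Helper45.OmegaAutKer
import Cfsg.Agent.Lib.Helper45.OmegaCenter

set_option autoImplicit false

/-! Piece [KM2] of S2737: a similarity of the minus form acting trivially on `PΩ⁻` is a scalar. -/

namespace Cfsg.Agent.Lib.Helper15.MFldKM2

open Matrix Module QuadraticMap
open Cfsg.Agent.Lib.Helper45.OmegaAut Cfsg.Agent.Lib.Helper43.H90Fin
open Cfsg.Agent.Lib.Helper44.MFld0 Cfsg.Agent.Lib.Helper44.MaxTS
  Cfsg.Agent.Lib.Helper44.NegPairs Cfsg.Agent.Lib.Helper44.QSpace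
  Cfsg.Agent.Lib.Helper44.QClass
open Cfsg.Agent.Lib.Helper44.MFldStmt

universe u

theorem main (hS : SepMinus.{u}) : KerPhiMinus.{u} := by
  intro F _ _ m hm a b hab g hg
  have hSep : Sep (minusQ m F a b) := hS F m a b hab
  have hcard : Fintype.card (MI m) = 2 * m + 2 := by
    simp only [Fintype.card_sum, Fintype.card_fin]
    ring
  by_cases h2 : (2 : F) = 0
  · have : CharP F 2 := CharTwo.of_one_ne_zero_of_two_eq_zero one_ne_zero h2
    have hGood : Cfsg.Agent.Lib.Helper44.CD2a.Good (minusQ m F a b) :=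
      Cfsg.Agent.Lib.Helper44.Omega2.good_of_card hSep
        (Or.inr (by rw [Module.finrank_fintype_fun_eq_card, hcard]; omega))
    have hcz := Cfsg.Agent.Lib.Helper45.OmegaCenter.card_center_two (minusQ m F a b) hSep hGood
      (by rw [hcard]; omega)
    have hbot : Subgroup.center ↥(Cfsg.Omega F (Cfsg.quadFormMinus m F a b)) = ⊥ :=
      Subgroup.card_eq_one.mp hcz
    -- `g` commutes with `Ω`
    have hcomm : ∀ s : ↥(Cfsg.Omega F (Cfsg.quadFormMinus m F a b)),
        (g : GL (MI m) F) * ((s : ↥(Cfsg.isometryGroup F (Cfsg.quadFormMinus m F a b))) :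
          GL (MI m) F) =
        ((s : ↥(Cfsg.isometryGroup F (Cfsg.quadFormMinus m F a b))) : GL (MI m) F) *
          (g : GL (MI m) F) := by
      intro s
      have h1 := congrArg (fun β : MulAut (Cfsg.POmega F (Cfsg.quadFormMinus m F a b)) =>
        β (QuotientGroup.mk s)) hg
      simp only [MulAut.one_apply] at h1
      rw [Phi_mk] at h1
      have h3 := QuotientGroup.eq.mp h1
      rw [hbot, Subgroup.mem_bot] at h3
      have h4 : cjΩ (Cfsg.quadFormMinus m F a b) g s = s := inv_mul_eq_one.mp h3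
      have h5 : (((cjΩ (Cfsg.quadFormMinus m F a b) g s :
          ↥(Cfsg.Omega F (Cfsg.quadFormMinus m F a b))) :
          ↥(Cfsg.isometryGroup F (Cfsg.quadFormMinus m F a b))) : GL (MI m) F) =
          ((s : ↥(Cfsg.isometryGroup F (Cfsg.quadFormMinus m F a b))) : GL (MI m) F) := by
        rw [h4]
      rw [cjΩ_coe] at h5
      calc (g : GL (MI m) F) * ((s : ↥(Cfsg.isometryGroup F (Cfsg.quadFormMinus m F a b))) :
            GL (MI m) F)
          = ((g : GL (MI m) F) * ((s : ↥(Cfsg.isometryGroup F (Cfsg.quadFormMinus m F a b))) :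
            GL (MI m) F) * (g : GL (MI m) F)⁻¹) * (g : GL (MI m) F) := by group
        _ = ((s : ↥(Cfsg.isometryGroup F (Cfsg.quadFormMinus m F a b))) : GL (MI m) F) *
            (g : GL (MI m) F) := by rw [h5]
    -- the multiplier is a square
    obtain ⟨c, hc⟩ := g.2
    obtain ⟨l, hl⟩ := FiniteField.isSquare_of_char_two (ringChar.eq F 2) (c : F)
    have hl0 : l ≠ 0 := by
      rintro rfl
      rw [mul_zero] at hl
      exact c.ne_zero hl
    obtain ⟨o, ho⟩ : ∃ o : GL (MI m) F, (o : Matrix (MI m) (MI m) F) =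
        l⁻¹ • ((g : GL (MI m) F) : Matrix (MI m) (MI m) F) := by
      refine ⟨⟨l⁻¹ • ((g : GL (MI m) F) : Matrix (MI m) (MI m) F),
        l • (((g : GL (MI m) F)⁻¹ : GL (MI m) F) : Matrix (MI m) (MI m) F), ?_, ?_⟩, rfl⟩
      · rw [Matrix.smul_mul, Matrix.mul_smul, smul_smul, inv_mul_cancel₀ hl0, one_smul,
          ← Units.val_mul, mul_inv_cancel, Units.val_one]
      · rw [Matrix.smul_mul, Matrix.mul_smul, smul_smul, mul_inv_cancel₀ hl0, one_smul,
          ← Units.val_mul, inv_mul_cancel, Units.val_one]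
    have hoiso : o ∈ Cfsg.isometryGroup F (Cfsg.quadFormMinus m F a b) := by
      rw [mem_iso_iff']
      intro v
      rw [ho, Matrix.smul_mulVec]
      have e1 : Cfsg.quadFormMinus m F a b
          (l⁻¹ • ((g : GL (MI m) F) : Matrix (MI m) (MI m) F) *ᵥ v) =
          (l⁻¹ * l⁻¹) • Cfsg.quadFormMinus m F a b
            (((g : GL (MI m) F) : Matrix (MI m) (MI m) F) *ᵥ v) :=
        QuadraticMap.map_smul (minusQ m F a b) l⁻¹ _
      rw [e1, hc v, hl, smul_eq_mul]
      field_simp
    have hz : ∀ s ∈ Cfsg.Omega F (Cfsg.quadFormMinus m F a b),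
        s * (⟨o, hoiso⟩ : ↥(Cfsg.isometryGroup F (Cfsg.quadFormMinus m F a b))) =
          (⟨o, hoiso⟩ : ↥(Cfsg.isometryGroup F (Cfsg.quadFormMinus m F a b))) * s := by
      intro s hs
      apply Subtype.ext
      apply Units.ext
      have h := congrArg (fun x : GL (MI m) F => (x : Matrix (MI m) (MI m) F))
        (hcomm ⟨s, hs⟩)
      simp only [Units.val_mul] at h
      show ((s : GL (MI m) F) : Matrix (MI m) (MI m) F) * (o : Matrix (MI m) (MI m) F) =
        (o : Matrix (MI m) (MI m) F) * ((s : GL (MI m) F) : Matrix (MI m) (MI m) F)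
      rw [ho, Matrix.mul_smul, Matrix.smul_mul, h]
    have ho1 := Cfsg.Agent.Lib.Helper45.OmegaCenter.centralizer_two (minusQ m F a b) hSep hGood
      (by rw [hcard]; omega) ⟨o, hoiso⟩ hz
    have ho2 : (o : Matrix (MI m) (MI m) F) = 1 := by
      have h := congrArg (fun z : ↥(Cfsg.isometryGroup F (Cfsg.quadFormMinus m F a b)) =>
        ((z : GL (MI m) F) : Matrix (MI m) (MI m) F)) ho1
      exact h
    refine ⟨l, fun x => ?_⟩
    have e : ((g : GL (MI m) F) : Matrix (MI m) (MI m) F) = l • (1 : Matrix (MI m) (MI m) F) := by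
      rw [← ho2, ho, smul_smul, mul_inv_cancel₀ hl0, one_smul]
    rw [e, Matrix.smul_mulVec, Matrix.one_mulVec]
  · exact Cfsg.Agent.Lib.Helper45.OmegaAutKer.scalar_of_Phi_eq_one h2 (minusQ m F a b) hSep
      (by rw [hcard]; omega) g hg

end Cfsg.Agent.Lib.Helper15.MFldKM2
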