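import Mathlib
import Cfsg.Agent.Lib.Helper44.OFldStmt
import Cfsg.Agent.Lib.Helper43.OPlSyl

set_option autoImplicit false

/-! Piece [A3] of S2736: the kernel of `(g, σ) ↦ Phi g * cσ σ` consists of scalars with
trivial field automorphism. -/

namespace Cfsg.Agent.Lib.Helper15.OFldA3

open Matrix
open Cfsg.Agent.Lib.Helper94.Basic Cfsg.Agent.Lib.Helper94.GLAux Cfsg.Agent.Lib.Helper94.Tv
  Cfsg.Agent.Lib.Helper94.QuadAbs Cfsg.Agent.Lib.Helper94.OrthSiegel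
  Cfsg.Agent.Lib.Helper43.OPlBase Cfsg.Agent.Lib.Helper43.OPlRoot
  Cfsg.Agent.Lib.Helper43.OPlAut Cfsg.Agent.Lib.Helper45.OmegaAut
  Cfsg.Agent.Lib.Helper44.OFld0

universe u

theorem main : Cfsg.Agent.Lib.Helper44.OFldStmt.KerPhiCσ.{u} := by
  intro F _ _ m hm g σ hker
  obtain ⟨p, hpc⟩ := CharP.exists F
  have hpp : p.Prime := CharP.char_is_prime F p
  have hfact : Fact p.Prime := ⟨hpp⟩
  obtain ⟨G, hG⟩ : ∃ G : Matrix (Fin m ⊕ Fin m) (Fin m ⊕ Fin m) F,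
      G = ((g : GL (Fin m ⊕ Fin m) F) : Matrix (Fin m ⊕ Fin m) (Fin m ⊕ Fin m) F) := ⟨_, rfl⟩
  -- the matrix identity
  have key : ∀ (a b : Fin m ⊕ Fin m), b ≠ a.swap → ∀ t : F,
      G * ((sg (hQ m F) (δ a) (σ t • δ b) : GL (Fin m ⊕ Fin m) F) :
          Matrix (Fin m ⊕ Fin m) (Fin m ⊕ Fin m) F) =
        ((sg (hQ m F) (δ a) (t • δ b) : GL (Fin m ⊕ Fin m) F) :
          Matrix (Fin m ⊕ Fin m) (Fin m ⊕ Fin m) F) * G := by
    intro a b hab' t
    have h1 : Phi (Cfsg.quadFormPlus m F) g (cσ σ (X hm a b t)) = X hm a b t := by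
      have h0 := congrArg (fun φ : MulAut (Cfsg.POmega F (Cfsg.quadFormPlus m F)) =>
        φ (X hm a b t)) hker
      exact h0
    rw [cσ_X] at h1
    unfold X rt at h1
    rw [Phi_mk] at h1
    have hx : (cjΩ (Cfsg.quadFormPlus m F) g (T hm (δ a) (σ t • δ b))) ^ p = 1 := by
      rw [← map_pow, Cfsg.Agent.Lib.Helper43.OPlSyl.T_pow hm p, map_one]
    have h2 := Cfsg.Agent.Lib.Helper43.OPlSyl.eq_lift hm p hx
      (Cfsg.Agent.Lib.Helper43.OPlSyl.T_pow hm p _ _) h1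
    have h3 : (((cjΩ (Cfsg.quadFormPlus m F) g (T hm (δ a) (σ t • δ b)) :
        ↥(Cfsg.Omega F (Cfsg.quadFormPlus m F))) :
        ↥(Cfsg.isometryGroup F (Cfsg.quadFormPlus m F))) : GL (Fin m ⊕ Fin m) F) =
        (((T hm (δ a) (t • δ b) : ↥(Cfsg.Omega F (Cfsg.quadFormPlus m F))) :
        ↥(Cfsg.isometryGroup F (Cfsg.quadFormPlus m F))) : GL (Fin m ⊕ Fin m) F) := by
      rw [h2]
    rw [cjΩ_coe, T_coe, T_coe] at h3
    have h4 : (g : GL (Fin m ⊕ Fin m) F) * sg (hQ m F) (δ a) (σ t • δ b) =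
        sg (hQ m F) (δ a) (t • δ b) * (g : GL (Fin m ⊕ Fin m) F) := by
      rw [← h3]
      group
    have h5 := congrArg (fun x : GL (Fin m ⊕ Fin m) F =>
      (x : Matrix (Fin m ⊕ Fin m) (Fin m ⊕ Fin m) F)) h4
    rw [hG]
    simpa using h5
  -- entries
  have entry : ∀ (a b : Fin m ⊕ Fin m), b ≠ a.swap → ∀ (t : F) (l k : Fin m ⊕ Fin m),
      σ t * ((δ k : Fin m ⊕ Fin m → F) a.swap * G l b - (δ k : Fin m ⊕ Fin m → F) b.swap * G l a) =
        t * (G a.swap k * (δ b : Fin m ⊕ Fin m → F) l -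
          G b.swap k * (δ a : Fin m ⊕ Fin m → F) l) := by
    intro a b hab' t l k
    have h1 : (G *ᵥ (((sg (hQ m F) (δ a) (σ t • δ b) : GL (Fin m ⊕ Fin m) F) :
        Matrix (Fin m ⊕ Fin m) (Fin m ⊕ Fin m) F) *ᵥ (δ k : Fin m ⊕ Fin m → F))) l =
        (((sg (hQ m F) (δ a) (t • δ b) : GL (Fin m ⊕ Fin m) F) :
        Matrix (Fin m ⊕ Fin m) (Fin m ⊕ Fin m) F) *ᵥ (G *ᵥ (δ k : Fin m ⊕ Fin m → F))) l := by
      rw [Matrix.mulVec_mulVec, Matrix.mulVec_mulVec, key a b hab' t]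
    rw [frame_mulVec hab', frame_mulVec hab'] at h1
    simp only [Matrix.mulVec_add, Matrix.mulVec_sub,
      Matrix.mulVec_smul, Pi.add_apply, Pi.sub_apply, Pi.smul_apply, mulVec_δ, smul_eq_mul] at h1
    linear_combination h1
  -- `G` is diagonal
  have hdiag : ∀ l b : Fin m ⊕ Fin m, l ≠ b → G l b = 0 := by
    intro l b hlb
    obtain ⟨d, hdb, hdb', hdl, hdl'⟩ := exists_other hm b l
    have hbd' : b ≠ d.swap := fun h => hdb' (by rw [h, Sum.swap_swap])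
    have h := entry d b hbd' 1 l d.swap
    rw [map_one, one_mul, one_mul, δ_self, one_mul,
      δ_ne (l := b.swap) (k := d.swap) (fun h => hdb (swap_inj h).symm), zero_mul, sub_zero,
      δ_ne (l := l) (k := b) hlb, δ_ne (l := l) (k := d) (Ne.symm hdl), mul_zero, mul_zero,
      sub_zero] at h
    exact h
  -- the diagonal entries
  have hlam : ∀ (a b : Fin m ⊕ Fin m), b ≠ a → b ≠ a.swap → ∀ t : F,
      σ t * G b b = t * G a.swap a.swap := by
    intro a b hab hab' t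
    have h := entry a b hab' t b a.swap
    rw [δ_self, one_mul, δ_ne (l := b.swap) (k := a.swap) (fun h => hab (swap_inj h)), zero_mul,
      sub_zero, δ_self, mul_one, δ_ne (l := b) (k := a) hab, mul_zero, sub_zero] at h
    exact h
  have hsame : ∀ b c : Fin m ⊕ Fin m, c ≠ b → c ≠ b.swap → G b b = G c c := by
    intro b c hcb hcb'
    have h := hlam c.swap b (fun h => hcb' (by rw [h, Sum.swap_swap]))
      (by rw [Sum.swap_swap]; exact Ne.symm hcb) 1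
    rw [map_one, one_mul, one_mul, Sum.swap_swap] at h
    exact h
  obtain ⟨b₀⟩ : Nonempty (Fin m ⊕ Fin m) := ⟨Sum.inl ⟨0, by omega⟩⟩
  obtain ⟨lam, hlamdef⟩ : ∃ lam : F, lam = G b₀ b₀ := ⟨_, rfl⟩
  have hall : ∀ c : Fin m ⊕ Fin m, G c c = lam := by
    intro c
    rw [hlamdef]
    by_cases h1 : c = b₀
    · rw [h1]
    by_cases h2 : c = b₀.swap
    · obtain ⟨d, hd1, hd2, -, -⟩ := exists_other hm b₀ b₀
      have e1 := hsame b₀ d hd1 hd2
      have e2 := hsame c d (by rw [h2]; exact hd2) (by rw [h2, Sum.swap_swap]; exact hd1)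
      rw [e2, e1]
    · exact (hsame b₀ c h1 h2).symm
  have hGx : ∀ x : Fin m ⊕ Fin m → F, G *ᵥ x = lam • x := by
    intro x
    funext l
    rw [Matrix.mulVec, dotProduct, Finset.sum_eq_single l]
    · rw [hall l, Pi.smul_apply, smul_eq_mul]
    · intro k _ hkl
      rw [hdiag l k (Ne.symm hkl), zero_mul]
    · intro h
      exact absurd (Finset.mem_univ l) h
  have hlam0 : lam ≠ 0 := by
    intro h0
    have h1 : ((g⁻¹ : GL (Fin m ⊕ Fin m) F) : Matrix (Fin m ⊕ Fin m) (Fin m ⊕ Fin m) F) *ᵥ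
        (G *ᵥ (δ b₀ : Fin m ⊕ Fin m → F)) = δ b₀ := by
      rw [Matrix.mulVec_mulVec, hG, ← Units.val_mul, inv_mul_cancel, Units.val_one,
        Matrix.one_mulVec]
    rw [hGx, h0, zero_smul, Matrix.mulVec_zero] at h1
    have h2 := congrFun h1 b₀
    rw [δ_self] at h2
    exact zero_ne_one h2
  refine ⟨?_, ⟨lam, fun x => by rw [← hG]; exact hGx x⟩⟩
  apply RingEquiv.ext
  intro t
  obtain ⟨d, hd1, hd2, -, -⟩ := exists_other hm b₀ b₀
  have h := hlam b₀ d hd1 hd2 t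
  rw [hall, hall] at h
  exact mul_right_cancel₀ hlam0 h

end Cfsg.Agent.Lib.Helper15.OFldA3
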