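import Mathlib
import Cfsg.Agent.Lib.Helper45.OMiStmt

/-!
# S5991 / NEGREDM (call by helper45)

An isometry `x` of the minus form with `x ^ r = -1`, `r` odd, has the same invariant subspaces
as the isometry `y = -x`, and `y ^ r = 1`.
-/

set_option autoImplicit false

universe u

open scoped Matrix

namespace Cfsg.Agent.Lib.Helper15.OMiNEGREDM

open Cfsg.Agent.Lib.Helper45.OMiStmt

theorem quadFormMinus_neg {F : Type u} [Field F] (d : ℕ) (a b : F) (v : M d → F) :
    Cfsg.quadFormMinus (d - 1) F a b (-v) = Cfsg.quadFormMinus (d - 1) F a b v := by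
  unfold Cfsg.quadFormMinus
  congr 1
  · apply Finset.sum_congr rfl
    intro i _
    simp
  · simp only [Pi.neg_apply]
    ring

theorem main : NegRedM.{u} := by
  intro F _ _ d a b r hr x hx hxr
  classical
  have hval : ((-x : Matrix.GeneralLinearGroup (M d) F) : Matrix (M d) (M d) F)
      = -(x : Matrix (M d) (M d) F) := Units.val_neg x
  refine ⟨-x, ?_, ?_, ?_⟩
  · intro u v
    show Cfsg.quadFormMinus (d - 1) F a b (((-x : Matrix.GeneralLinearGroup (M d) F) :
      Matrix (M d) (M d) F) *ᵥ u) = Cfsg.quadFormMinus (d - 1) F a b u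
    rw [hval, Matrix.neg_mulVec, quadFormMinus_neg]
    exact hx u u
  · apply Units.ext
    rw [Units.val_pow_eq_pow_val, hval, Odd.neg_pow hr, Units.val_one]
    rw [Units.val_pow_eq_pow_val] at hxr
    rw [hxr, neg_neg]
  · intro W
    unfold StabM
    rw [hval]
    constructor
    · rintro h _ ⟨w, hw, rfl⟩
      have h1 : Matrix.toLin' (-(x : Matrix (M d) (M d) F)) w ∈ W :=
        h (Submodule.mem_map_of_mem hw)
      rw [Matrix.toLin'_apply, Matrix.neg_mulVec] at h1
      rw [Matrix.toLin'_apply]
      exact (Submodule.neg_mem_iff W).1 h1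
    · rintro h _ ⟨w, hw, rfl⟩
      have h1 : Matrix.toLin' (x : Matrix (M d) (M d) F) w ∈ W :=
        h (Submodule.mem_map_of_mem hw)
      rw [Matrix.toLin'_apply] at h1
      rw [Matrix.toLin'_apply, Matrix.neg_mulVec]
      exact (Submodule.neg_mem_iff W).2 h1

end Cfsg.Agent.Lib.Helper15.OMiNEGREDM
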