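import Mathlib
import Cfsg.Agent.Lib.Helper45.OMiStmt

/-!
# S5991 / SCALM (call by helper45)

A scalar isometry of the standard minus form is `± 1`.
-/

set_option autoImplicit false
set_option maxHeartbeats 400000

namespace Cfsg.Agent.Lib.Helper15.OMiSCALM

open Cfsg.Agent.Lib.Helper45.OMiStmt
open scoped Matrix

universe u

theorem main : ScalM.{u} := by
  intro F _ _ d a b y hy z hz
  classical
  obtain ⟨v, hv⟩ : ∃ v : M d → F, v = Pi.single (Sum.inr 0) 1 := ⟨_, rfl⟩
  have hQv : Cfsg.quadFormMinus (d - 1) F a b v = 1 := by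
    unfold Cfsg.quadFormMinus
    rw [hv]
    simp
  have h1 : Cfsg.quadFormMinus (d - 1) F a b ((y : Matrix (M d) (M d) F) *ᵥ v) =
      Cfsg.quadFormMinus (d - 1) F a b v := hy v v
  have h2 : (y : Matrix (M d) (M d) F) *ᵥ v = z • v := by
    rw [hz, Matrix.smul_mulVec, Matrix.one_mulVec]
  have h3 : Cfsg.quadFormMinus (d - 1) F a b (z • v) =
      z * z * Cfsg.quadFormMinus (d - 1) F a b v := by
    unfold Cfsg.quadFormMinus
    rw [mul_add, Finset.mul_sum]
    congr 1
    · apply Finset.sum_congr rfl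
      intro i _
      simp only [Pi.smul_apply, smul_eq_mul]
      ring
    · simp only [Pi.smul_apply, smul_eq_mul]
      ring
  rw [h2, h3, hQv, mul_one] at h1
  have h4 : (z - 1) * (z + 1) = 0 := by linear_combination h1
  rcases mul_eq_zero.mp h4 with h | h
  · left
    exact sub_eq_zero.mp h
  · right
    exact eq_neg_of_add_eq_zero_left h

end Cfsg.Agent.Lib.Helper15.OMiSCALM
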