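import Mathlib
import Cfsg.Agent.Lib.Helper45.OMiStmt

/-!
# S5991 / TOPNDM (call by helper45)

The standard minus form (odd characteristic, anisotropic binary part) is nondegenerate.
-/

set_option autoImplicit false
set_option maxHeartbeats 400000

namespace Cfsg.Agent.Lib.Helper15.OMiTOPNDM

open Cfsg.Agent.Lib.Helper45.OMiStmt
open scoped Matrix

universe u

/-- the polar form of the standard minus form -/
theorem polar_formula (d : ℕ) (F : Type u) [Field F] (a b : F) (u v : M d → F) :
    QuadraticMap.polar (Cfsg.quadFormMinus (d - 1) F a b) u v =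
      (∑ i : Fin (d - 1), (u (.inl (.inl i)) * v (.inl (.inr i)) +
          v (.inl (.inl i)) * u (.inl (.inr i)))) +
        (2 * u (.inr 0) * v (.inr 0) + a * (u (.inr 0) * v (.inr 1) + u (.inr 1) * v (.inr 0)) +
          2 * b * u (.inr 1) * v (.inr 1)) := by
  unfold QuadraticMap.polar Cfsg.quadFormMinus
  simp only [Pi.add_apply]
  have h : ∀ (A B C s1 s2 s3 : F), A - B - C = s1 → s2 - s3 = 0 → True := fun _ _ _ _ _ _ _ _ => trivial
  have hs : (∑ i : Fin (d - 1), (u (.inl (.inl i)) + v (.inl (.inl i))) *
        (u (.inl (.inr i)) + v (.inl (.inr i)))) =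
      (∑ i : Fin (d - 1), u (.inl (.inl i)) * u (.inl (.inr i))) +
      (∑ i : Fin (d - 1), v (.inl (.inl i)) * v (.inl (.inr i))) +
      (∑ i : Fin (d - 1), (u (.inl (.inl i)) * v (.inl (.inr i)) +
          v (.inl (.inl i)) * u (.inl (.inr i)))) := by
    rw [← Finset.sum_add_distrib, ← Finset.sum_add_distrib]
    apply Finset.sum_congr rfl
    intro i _
    ring
  rw [hs]
  ring

theorem two_ne_zero' (F : Type u) [Field F] [Fintype F] (hodd : Odd (Fintype.card F)) :
    (2 : F) ≠ 0 := by
  apply Ring.two_ne_zero
  intro h
  rw [FiniteField.even_card_iff_char_two] at h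
  rcases hodd with ⟨k, hk⟩
  omega

theorem main : TopNDM.{u} := by
  intro F _ _ hodd d a b hab
  classical
  have h2 : (2 : F) ≠ 0 := two_ne_zero' F hodd
  have hdisc : 4 * b - a ^ 2 ≠ 0 := by
    intro h
    have := hab a (-2) (by linear_combination h)
    exact h2 (neg_eq_zero.mp this.2)
  have key : ∀ w : M d → F, w ≠ 0 →
      ∃ x : M d → F, QuadraticMap.polar (Cfsg.quadFormMinus (d - 1) F a b) x w ≠ 0 := by
    intro w hw
    by_cases hhyp : ∃ j, w (Sum.inl j) ≠ 0
    · obtain ⟨j, hj⟩ := hhyp
      rcases j with i | i
      · refine ⟨Pi.single (Sum.inl (Sum.inr i)) 1, ?_⟩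
        rw [polar_formula]
        simp only [Pi.single_apply, Sum.inr.injEq, Sum.inl.injEq, reduceCtorEq, if_false,
          mul_zero, zero_mul, zero_add, add_zero]
        rw [Finset.sum_eq_single i]
        · simpa using hj
        · intro b _ hb
          rw [if_neg (fun h => hb h)]
          ring
        · intro h
          exact absurd (Finset.mem_univ i) h
      · refine ⟨Pi.single (Sum.inl (Sum.inl i)) 1, ?_⟩
        rw [polar_formula]
        simp only [Pi.single_apply, Sum.inr.injEq, Sum.inl.injEq, reduceCtorEq, if_false,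
          mul_zero, zero_mul, zero_add, add_zero]
        rw [Finset.sum_eq_single i]
        · simpa using hj
        · intro b _ hb
          rw [if_neg (fun h => hb h)]
          ring
        · intro h
          exact absurd (Finset.mem_univ i) h
    · push_neg at hhyp
      by_contra hno
      push_neg at hno
      have e1 := hno (Pi.single (Sum.inr 0) 1)
      have e2 := hno (Pi.single (Sum.inr 1) 1)
      rw [polar_formula] at e1 e2
      simp only [Pi.single_apply, Sum.inr.injEq, Sum.inl.injEq, reduceCtorEq, if_false,
        mul_zero, zero_mul, zero_add, add_zero, Finset.sum_const_zero, if_true,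
        Fin.isValue, one_ne_zero, zero_ne_one, mul_one, one_mul] at e1 e2
      have hw2 : w (Sum.inr 1) = 0 := by
        have : (4 * b - a ^ 2) * w (Sum.inr 1) = 0 := by linear_combination 2 * e2 - a * e1
        rcases mul_eq_zero.mp this with h | h
        · exact absurd h hdisc
        · exact h
      have hw1 : w (Sum.inr 0) = 0 := by
        have : 2 * w (Sum.inr 0) = 0 := by linear_combination e1 - a * hw2
        rcases mul_eq_zero.mp this with h | h
        · exact absurd h h2
        · exact h
      apply hw
      funext j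
      rcases j with j | j
      · exact hhyp j
      · fin_cases j
        · exact hw1
        · exact hw2
  intro w _ hw
  obtain ⟨x, hx⟩ := key w hw
  refine ⟨⟨x, Submodule.mem_top, hx⟩, ⟨x, Submodule.mem_top, ?_⟩⟩
  rw [QuadraticMap.polar_comm]
  exact hx

end Cfsg.Agent.Lib.Helper15.OMiTOPNDM
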