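import Mathlib
import Cfsg.Agent.Lib.Helper18.QuadStmt

/-! Piece PSLLIFT of S2787: an element of order `p` of `PSL₂(F)` (`char F = p` odd) lifts to an
element of order `p` of `SL₂(F)`. -/

set_option autoImplicit false

namespace Cfsg.Agent.Lib.Helper15.Q87PSLLIFT

open Cfsg.Agent.Lib.Helper18.QuadStmt

universe u

theorem nS_val (F : Type*) [Field F] :
    ((nS F : Matrix.SpecialLinearGroup (Fin 2) F) : Matrix (Fin 2) (Fin 2) F) = -1 := by
  ext i j
  fin_cases i <;> fin_cases j <;> simp [nS]

theorem nS_mem_center (F : Type*) [Field F] :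
    nS F ∈ Subgroup.center (Matrix.SpecialLinearGroup (Fin 2) F) := by
  rw [Subgroup.mem_center_iff]
  intro h
  apply Subtype.ext
  rw [Matrix.SpecialLinearGroup.coe_mul, Matrix.SpecialLinearGroup.coe_mul, nS_val]
  simp

theorem main : PslLift.{u} := by
  intro F _ p _ _ hp b hb hbp
  obtain ⟨g0, rfl⟩ := QuotientGroup.mk'_surjective _ b
  have hodd : Odd p := Nat.Prime.odd_of_ne_two (Fact.out) hp
  have hc : g0 ^ p ∈ Subgroup.center (Matrix.SpecialLinearGroup (Fin 2) F) := by
    rw [← QuotientGroup.eq_one_iff]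
    exact hbp
  rw [Matrix.SpecialLinearGroup.mem_center_iff] at hc
  obtain ⟨r, hr, hrg⟩ := hc
  have hr2 : r = 1 ∨ r = -1 := by
    have h2 : r ^ 2 = 1 := by simpa using hr
    exact sq_eq_one_iff.mp h2
  rcases hr2 with rfl | rfl
  · refine ⟨g0, rfl, ?_, ?_⟩
    · apply Subtype.ext
      rw [← hrg]
      simp
    · rintro rfl
      exact hb (map_one _)
  · have hmk : QuotientGroup.mk' (Subgroup.center (Matrix.SpecialLinearGroup (Fin 2) F))
        (nS F * g0) =
        QuotientGroup.mk' (Subgroup.center (Matrix.SpecialLinearGroup (Fin 2) F)) g0 := by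
      rw [map_mul]
      have h1 : QuotientGroup.mk' (Subgroup.center (Matrix.SpecialLinearGroup (Fin 2) F))
          (nS F) = 1 := (QuotientGroup.eq_one_iff _).mpr (nS_mem_center F)
      rw [h1, one_mul]
    refine ⟨nS F * g0, hmk, ?_, ?_⟩
    · apply Subtype.ext
      have h1 : ((g0 : Matrix (Fin 2) (Fin 2) F)) ^ p = -1 := by
        rw [← Matrix.SpecialLinearGroup.coe_pow, ← hrg]
        ext i j
        fin_cases i <;> fin_cases j <;> simp
      rw [Matrix.SpecialLinearGroup.coe_pow, Matrix.SpecialLinearGroup.coe_mul, nS_val,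
        neg_one_mul, neg_pow, h1, hodd.neg_one_pow]
      simp
    · intro h
      apply hb
      rw [← hmk, h]
      exact map_one _

end Cfsg.Agent.Lib.Helper15.Q87PSLLIFT
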