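import Mathlib
import Cfsg.Agent.Lib.Helper18.QuadStmt

/-! Piece SLHOM of S2787: an element of order `p` of `SL₂(F)` (`char F = p` odd) is the image of
`[[1,1],[0,1]]` under a conjugate of the base-change hom `SL₂(𝔽_p) → SL₂(F)`. -/

set_option autoImplicit false

namespace Cfsg.Agent.Lib.Helper15.Q87SLHOM

open Cfsg.Agent.Lib.Helper18.QuadStmt

universe u

/-- conjugation by an invertible matrix, as an endomorphism of `SL₂(F)` -/
def conjHom {F : Type*} [Field F] (Q : (Matrix (Fin 2) (Fin 2) F)ˣ) :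
    Matrix.SpecialLinearGroup (Fin 2) F →* Matrix.SpecialLinearGroup (Fin 2) F where
  toFun M := ⟨(Q : Matrix (Fin 2) (Fin 2) F) * (M : Matrix (Fin 2) (Fin 2) F) *
      ((Q⁻¹ : (Matrix (Fin 2) (Fin 2) F)ˣ) : Matrix (Fin 2) (Fin 2) F), by
    rw [Matrix.det_mul, Matrix.det_mul, M.2, mul_one, ← Matrix.det_mul, Units.mul_inv,
      Matrix.det_one]⟩
  map_one' := by
    apply Subtype.ext
    simp
  map_mul' A B := by
    apply Subtype.ext
    show (Q : Matrix (Fin 2) (Fin 2) F) * ((A : Matrix (Fin 2) (Fin 2) F) * (B : Matrix (Fin 2) (Fin 2) F)) *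
        ((Q⁻¹ : (Matrix (Fin 2) (Fin 2) F)ˣ) : Matrix (Fin 2) (Fin 2) F) =
      ((Q : Matrix (Fin 2) (Fin 2) F) * (A : Matrix (Fin 2) (Fin 2) F) *
        ((Q⁻¹ : (Matrix (Fin 2) (Fin 2) F)ˣ) : Matrix (Fin 2) (Fin 2) F)) *
      ((Q : Matrix (Fin 2) (Fin 2) F) * (B : Matrix (Fin 2) (Fin 2) F) *
        ((Q⁻¹ : (Matrix (Fin 2) (Fin 2) F)ˣ) : Matrix (Fin 2) (Fin 2) F))
    simp only [mul_assoc, Units.inv_mul_cancel_left]

theorem conjHom_val {F : Type*} [Field F] (Q : (Matrix (Fin 2) (Fin 2) F)ˣ)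
    (M : Matrix.SpecialLinearGroup (Fin 2) F) :
    ((conjHom Q M : Matrix.SpecialLinearGroup (Fin 2) F) : Matrix (Fin 2) (Fin 2) F) =
      (Q : Matrix (Fin 2) (Fin 2) F) * (M : Matrix (Fin 2) (Fin 2) F) *
      ((Q⁻¹ : (Matrix (Fin 2) (Fin 2) F)ˣ) : Matrix (Fin 2) (Fin 2) F) := rfl

/-- an element of order dividing `p` in `SL₂(F)`, `char F = p`, has trace `2` -/
theorem trace_eq_two {F : Type*} [Field F] (p : ℕ) [Fact p.Prime] [CharP F p]
    (g : Matrix.SpecialLinearGroup (Fin 2) F) (hgp : g ^ p = 1) :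
    (g : Matrix (Fin 2) (Fin 2) F) 0 0 + (g : Matrix (Fin 2) (Fin 2) F) 1 1 = 2 := by
  have h1 : ((g : Matrix (Fin 2) (Fin 2) F) - 1) ^ p = 0 := by
    rw [sub_pow_char_of_commute p (Commute.one_right _), one_pow,
      ← Matrix.SpecialLinearGroup.coe_pow, hgp]
    simp
  have h2 : IsNilpotent ((g : Matrix (Fin 2) (Fin 2) F) - 1) := ⟨p, h1⟩
  have h3 := (Matrix.isNilpotent_trace_of_isNilpotent h2).eq_zero
  rw [Matrix.trace_sub, Matrix.trace_fin_two, Matrix.trace_one] at h3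
  simp at h3
  linear_combination h3

theorem exists_conj {F : Type*} [Field F] (g : Matrix.SpecialLinearGroup (Fin 2) F)
    (htr : (g : Matrix (Fin 2) (Fin 2) F) 0 0 + (g : Matrix (Fin 2) (Fin 2) F) 1 1 = 2)
    (hg : g ≠ 1) :
    ∃ Q : (Matrix (Fin 2) (Fin 2) F)ˣ,
      (g : Matrix (Fin 2) (Fin 2) F) * (Q : Matrix (Fin 2) (Fin 2) F) =
        (Q : Matrix (Fin 2) (Fin 2) F) * !![1, 1; 0, 1] := by
  have hdet : (g : Matrix (Fin 2) (Fin 2) F) 0 0 * (g : Matrix (Fin 2) (Fin 2) F) 1 1 -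
      (g : Matrix (Fin 2) (Fin 2) F) 0 1 * (g : Matrix (Fin 2) (Fin 2) F) 1 0 = 1 := by
    have := g.2
    rwa [Matrix.det_fin_two] at this
  obtain ⟨a, b, c, d, hM⟩ : ∃ a b c d : F, (g : Matrix (Fin 2) (Fin 2) F) = !![a, b; c, d] :=
    ⟨_, _, _, _, Matrix.eta_fin_two _⟩
  rw [hM] at htr hdet ⊢
  simp only [Matrix.of_apply, Matrix.cons_val', Matrix.cons_val_zero, Matrix.cons_val_one,
    Matrix.cons_val_fin_one] at htr hdet
  by_cases hc : c = 0
  · have hb : b ≠ 0 := by
      intro hb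
      apply hg
      subst hc hb
      have ha2 : (a - 1) ^ 2 = 0 := by linear_combination a * htr - hdet
      have ha : a = 1 := by
        have := pow_eq_zero_iff (n := 2) (by norm_num) |>.mp ha2
        linear_combination this
      have hd : d = 1 := by linear_combination htr - ha
      apply Subtype.ext
      rw [hM, ha, hd]
      ext i j
      fin_cases i <;> fin_cases j <;> simp
    refine ⟨Matrix.GeneralLinearGroup.mkOfDetNeZero !![b, 0; d - 1, 1]
      (by simpa [Matrix.det_fin_two] using hb), ?_⟩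
    show !![a, b; c, d] * !![b, 0; d - 1, 1] = !![b, 0; d - 1, 1] * !![1, 1; 0, 1]
    ext i j
    fin_cases i <;> fin_cases j <;> simp [Matrix.mul_apply, Fin.sum_univ_two]
    · linear_combination b * htr
    · linear_combination d * htr - hdet
  · refine ⟨Matrix.GeneralLinearGroup.mkOfDetNeZero !![a - 1, 1; c, 0]
      (by simpa [Matrix.det_fin_two] using hc), ?_⟩
    show !![a, b; c, d] * !![a - 1, 1; c, 0] = !![a - 1, 1; c, 0] * !![1, 1; 0, 1]
    ext i j
    fin_cases i <;> fin_cases j <;> simp [Matrix.mul_apply, Fin.sum_univ_two]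
    · linear_combination a * htr - hdet
    · linear_combination c * htr

theorem main : SlHom.{u} := by
  intro F _ p _ _ hp g hgp hg
  have htr := trace_eq_two p g hgp
  obtain ⟨Q, hQ⟩ := exists_conj g htr hg
  have h2 : (2 : F) ≠ 0 := by
    intro h
    have h' : ((2 : ℕ) : F) = 0 := by exact_mod_cast h
    rw [CharP.cast_eq_zero_iff F p] at h'
    have hp' : p.Prime := Fact.out
    exact hp ((Nat.prime_dvd_prime_iff_eq hp' Nat.prime_two).mp h')
  refine ⟨(conjHom Q).comp (Matrix.SpecialLinearGroup.map (ZMod.castHom (dvd_refl p) F)),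
    ?_, ?_, ?_⟩
  · apply Subtype.ext
    rw [MonoidHom.comp_apply, conjHom_val]
    have hx : ((Matrix.SpecialLinearGroup.map (ZMod.castHom (dvd_refl p) F) (xS (ZMod p)) :
        Matrix.SpecialLinearGroup (Fin 2) F) : Matrix (Fin 2) (Fin 2) F) = !![1, 1; 0, 1] := by
      rw [Matrix.SpecialLinearGroup.map_apply_coe]
      ext i j
      fin_cases i <;> fin_cases j <;> simp [xS, RingHom.mapMatrix_apply]
    rw [hx, ← hQ, mul_assoc, Units.mul_inv, mul_one]
  · apply Subtype.ext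
    rw [MonoidHom.comp_apply, conjHom_val]
    have hn : ((Matrix.SpecialLinearGroup.map (ZMod.castHom (dvd_refl p) F) (nS (ZMod p)) :
        Matrix.SpecialLinearGroup (Fin 2) F) : Matrix (Fin 2) (Fin 2) F) = -1 := by
      rw [Matrix.SpecialLinearGroup.map_apply_coe]
      ext i j
      fin_cases i <;> fin_cases j <;> simp [nS, RingHom.mapMatrix_apply]
    have hn' : ((nS F : Matrix.SpecialLinearGroup (Fin 2) F) : Matrix (Fin 2) (Fin 2) F) = -1 := by
      ext i j
      fin_cases i <;> fin_cases j <;> simp [nS]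
    rw [hn, hn', mul_neg, mul_one, neg_mul, Units.mul_inv]
  · intro hcen
    rw [Matrix.SpecialLinearGroup.mem_center_iff] at hcen
    obtain ⟨r, _, hr⟩ := hcen
    rw [MonoidHom.comp_apply, conjHom_val] at hr
    have hw : ((Matrix.SpecialLinearGroup.map (ZMod.castHom (dvd_refl p) F) (wS (ZMod p)) :
        Matrix.SpecialLinearGroup (Fin 2) F) : Matrix (Fin 2) (Fin 2) F) = !![0, 1; -1, 0] := by
      rw [Matrix.SpecialLinearGroup.map_apply_coe]
      ext i j
      fin_cases i <;> fin_cases j <;> simp [wS, RingHom.mapMatrix_apply]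
    rw [hw] at hr
    -- `!![0,1;-1,0] = Q⁻¹ * scalar r * Q = scalar r`
    have h3 : (!![0, 1; -1, 0] : Matrix (Fin 2) (Fin 2) F) = Matrix.scalar (Fin 2) r := by
      have h4 : ((Q⁻¹ : (Matrix (Fin 2) (Fin 2) F)ˣ) : Matrix (Fin 2) (Fin 2) F) *
          (Matrix.scalar (Fin 2) r) * (Q : Matrix (Fin 2) (Fin 2) F) = !![0, 1; -1, 0] := by
        rw [hr]
        simp only [mul_assoc, Units.inv_mul_cancel_left, Units.inv_mul, mul_one]
      rw [← h4]
      have h5 : Commute (Matrix.scalar (Fin 2) r) (Q : Matrix (Fin 2) (Fin 2) F) :=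
        Matrix.scalar_commute r (fun x => Commute.all r x) _
      rw [mul_assoc, h5.eq, ← mul_assoc, Units.inv_mul, one_mul]
    have h6 := congrFun (congrFun h3 0) 1
    simp at h6

end Cfsg.Agent.Lib.Helper15.Q87SLHOM
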