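import Mathlib
import Cfsg.Agent.Lib.Helper23.S69Stmt

/-! S1369 piece COATOMCONJ (pure group theory). -/

set_option autoImplicit false
universe u

namespace Cfsg.Agent.Lib.Helper15.S69COATOMCONJ

open Cfsg Cfsg.Agent.Lib.Helper23.S69Stmt Cfsg.Agent.Lib.Helper54.S68Stmt

theorem main : CoatomConj.{u} := by
  intro G _ h M hM
  exact (OrderIso.isCoatom_iff (MulEquiv.mapSubgroup (MulAut.conj h)) M).mpr hM

end Cfsg.Agent.Lib.Helper15.S69COATOMCONJ
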