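import Mathlib
import Cfsg.Agent.Lib.Helper23.S69Stmt

/-! S1369 piece MEET (pure group theory). -/

set_option autoImplicit false
universe u

namespace Cfsg.Agent.Lib.Helper15.S69MEET

open Cfsg Cfsg.Agent.Lib.Helper23.S69Stmt Cfsg.Agent.Lib.Helper54.S68Stmt

theorem main : Meet.{u} := by
  intro G _ _ S T hS hT
  by_contra hne
  rw [Set.not_nonempty_iff_eq_empty] at hne
  have hdisj : Disjoint S T := Set.disjoint_iff_inter_eq_empty.mpr hne
  have h1 : (S ∪ T).ncard = S.ncard + T.ncard :=
    Set.ncard_union_eq hdisj (Set.toFinite S) (Set.toFinite T)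
  have h2 : (S ∪ T).ncard ≤ Nat.card G := by
    rw [← Set.ncard_univ]; exact Set.ncard_le_ncard (Set.subset_univ _) (Set.toFinite _)
  omega

end Cfsg.Agent.Lib.Helper15.S69MEET
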