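import Mathlib
import Cfsg.Agent.Lib.Helper23.S69Stmt
import Cfsg.Agent.Lib.Helper9.ProdCyc

/-! S1369 piece PRIMESUB (pure group theory): a subgroup of prime order of a cyclic `A ⊔ B`
lies in `A` or in `B`. -/

set_option autoImplicit false
universe u

namespace Cfsg.Agent.Lib.Helper15.S69PRIMESUB

open Cfsg Cfsg.Agent.Lib.Helper23.S69Stmt Cfsg.Agent.Lib.Helper54.S68Stmt

theorem main : PrimeSub.{u} := by
  intro G _ _ A B X hC hX hp
  have hA : A ≤ A ⊔ B := le_sup_left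
  have hB : B ≤ A ⊔ B := le_sup_right
  have hfp : Fact (Nat.card X).Prime := ⟨hp⟩
  by_cases hpA : Nat.card X ∣ Nat.card A
  · left
    obtain ⟨a, ha⟩ := exists_prime_orderOf_dvd_card' (G := A) (Nat.card X) hpA
    have hcard : Nat.card (Subgroup.zpowers (a : G)) = Nat.card X := by
      rw [Nat.card_zpowers, Subgroup.orderOf_coe, ha]
    have hle : Subgroup.zpowers (a : G) ≤ A := by
      rw [Subgroup.zpowers_le]; exact a.2
    have := Cfsg.Agent.Lib.Helper9.ProdCyc.eq_of_card_eq_of_le_cyclic (A ⊔ B) _ X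
      (hle.trans hA) hX hcard
    rw [← this]; exact hle
  by_cases hpB : Nat.card X ∣ Nat.card B
  · right
    obtain ⟨b, hb⟩ := exists_prime_orderOf_dvd_card' (G := B) (Nat.card X) hpB
    have hcard : Nat.card (Subgroup.zpowers (b : G)) = Nat.card X := by
      rw [Nat.card_zpowers, Subgroup.orderOf_coe, hb]
    have hle : Subgroup.zpowers (b : G) ≤ B := by
      rw [Subgroup.zpowers_le]; exact b.2
    have := Cfsg.Agent.Lib.Helper9.ProdCyc.eq_of_card_eq_of_le_cyclic (A ⊔ B) _ X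
      (hle.trans hB) hX hcard
    rw [← this]; exact hle
  exfalso
  have hcomm : ∀ x ∈ A ⊔ B, ∀ y ∈ A ⊔ B, x * y = y * x := by
    intro x hx y hy
    have hc : IsMulCommutative ↥(A ⊔ B) := IsCyclic.isMulCommutative
    have := mul_comm' (⟨x, hx⟩ : ↥(A ⊔ B)) ⟨y, hy⟩
    exact congrArg Subtype.val this
  obtain ⟨n, hn⟩ : ∃ n, n = Nat.card A * Nat.card B := ⟨_, rfl⟩
  obtain ⟨K, hK⟩ : ∃ K : Subgroup G, ∀ x, x ∈ K ↔ (x ∈ A ⊔ B ∧ x ^ n = 1) := by
    refine ⟨{ carrier := {x | x ∈ A ⊔ B ∧ x ^ n = 1}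
              one_mem' := ⟨one_mem _, one_pow _⟩
              mul_mem' := fun {x y} hx hy => ⟨mul_mem hx.1 hy.1, by
                rw [(show Commute x y from hcomm x hx.1 y hy.1).mul_pow, hx.2, hy.2, one_mul]⟩
              inv_mem' := fun {x} hx => ⟨inv_mem hx.1, by rw [inv_pow, hx.2, inv_one]⟩ }, ?_⟩
    intro x; rfl
  have hAK : A ≤ K := by
    intro a ha
    rw [hK]
    refine ⟨hA ha, ?_⟩
    have h := pow_card_eq_one' (G := A) (x := ⟨a, ha⟩)
    have h' : a ^ Nat.card A = 1 := congrArg Subtype.val h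
    rw [hn, pow_mul, h', one_pow]
  have hBK : B ≤ K := by
    intro b hb
    rw [hK]
    refine ⟨hB hb, ?_⟩
    have h := pow_card_eq_one' (G := B) (x := ⟨b, hb⟩)
    have h' : b ^ Nat.card B = 1 := congrArg Subtype.val h
    rw [hn, mul_comm, pow_mul, h', one_pow]
  have hle : A ⊔ B ≤ K := sup_le hAK hBK
  obtain ⟨x, hx⟩ := exists_prime_orderOf_dvd_card' (G := X) (Nat.card X) (dvd_refl _)
  have hxo : orderOf (x : G) = Nat.card X := by rw [Subgroup.orderOf_coe, hx]
  have hxK := (hK _).mp (hle (hX x.2))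
  have hdvd : Nat.card X ∣ n := by
    rw [← hxo]; exact orderOf_dvd_of_pow_eq_one hxK.2
  rw [hn] at hdvd
  rcases (Nat.Prime.dvd_mul hp).mp hdvd with h | h
  · exact hpA h
  · exact hpB h

end Cfsg.Agent.Lib.Helper15.S69PRIMESUB
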