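import Mathlib
import Cfsg.Agent.Lib.Helper14.TC3Stmt
import Cfsg.Agent.S0012
import Cfsg.Agent.S0029

/-!
# S4460 / GRPR: a `p`-group acting on `L/L₀` (an `r`-group) trivially modulo `L'` acts trivially
-/

set_option autoImplicit false

namespace Cfsg.Agent.Lib.Helper15.TC3GRPR

open Cfsg Cfsg.Agent.Lib.Helper14.TC3Stmt

universe u

theorem main : GrpR.{u} := by
  intro G _ _ L P L₀ p r hp hr hpr hLn hL₀n hL₀L hk hP hLP
  obtain ⟨k, hk⟩ := hk
  have hL₀n' : L₀.Normal := hL₀n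
  have hrF : Fact r.Prime := ⟨hr⟩
  have hpF : Fact p.Prime := ⟨hp⟩
  have hπ : Function.Surjective (QuotientGroup.mk' L₀) := QuotientGroup.mk'_surjective L₀
  have hLbar : IsPGroup r ↥(L.map (QuotientGroup.mk' L₀)) := by
    intro x
    obtain ⟨l, hl, hlx⟩ := x.2
    refine ⟨k, ?_⟩
    apply Subtype.ext
    have hmem : (⟨l, hl⟩ : ↥L) ^ (L₀.subgroupOf L).index ∈ L₀.subgroupOf L :=
      Subgroup.pow_index_mem _ _
    have hidx : (L₀.subgroupOf L).index = r ^ k := hk
    rw [hidx, Subgroup.mem_subgroupOf] at hmem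
    have hmem' : l ^ r ^ k ∈ L₀ := by simpa using hmem
    rw [Subgroup.coe_pow, ← hlx, ← map_pow, Subgroup.coe_one]
    exact (QuotientGroup.eq_one_iff _).mpr hmem'
  have hLbarN : (L.map (QuotientGroup.mk' L₀)).Normal := hLn.map _ hπ
  have hcent := Cfsg.Agent.S0029.result (P.map (QuotientGroup.mk' L₀))
    (L.map (QuotientGroup.mk' L₀)) (by
      rw [Subgroup.normalizer_eq_top]
      exact le_top) (by
      have h1 : IsPGroup p ↥(P.map (QuotientGroup.mk' L₀)) := hP.map _
      obtain ⟨a, ha⟩ := IsPGroup.iff_card.mp h1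
      have h2 : IsPGroup r ↥(frattini ↥(L.map (QuotientGroup.mk' L₀))) :=
        hLbar.to_subgroup _
      obtain ⟨b, hb⟩ := IsPGroup.iff_card.mp h2
      rw [ha, hb]
      exact Nat.Coprime.pow _ _ ((Nat.coprime_primes hp hr).mpr hpr)) (by
      intro a ha k' hk'
      obtain ⟨y, hy, rfl⟩ := ha
      obtain ⟨l, hl, rfl⟩ := hk'
      have h1 : y * l * y⁻¹ * l⁻¹ ∈ ⁅L, L⁆ := by
        apply hLP
        rw [Subgroup.commutator_comm]
        exact Subgroup.commutator_mem_commutator hy hl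
      have h2 : QuotientGroup.mk' L₀ (y * l * y⁻¹ * l⁻¹) ∈
          (⁅L, L⁆).map (QuotientGroup.mk' L₀) := Subgroup.mem_map_of_mem _ h1
      rw [Subgroup.map_commutator, ← Subgroup.map_subtype_commutator] at h2
      have h3 := Subgroup.map_mono (f := (L.map (QuotientGroup.mk' L₀)).subtype)
        (Cfsg.Agent.S0012.result r hLbar).1 h2
      simpa using h3)
  rw [Subgroup.commutator_le]
  intro l hl y hy
  have h1 := hcent (Subgroup.mem_map_of_mem (QuotientGroup.mk' L₀) hy)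
  have h2 := Subgroup.mem_centralizer_iff.mp h1 _ (Subgroup.mem_map_of_mem _ hl)
  rw [commutatorElement_def]
  apply (QuotientGroup.eq_one_iff (N := L₀) _).mp
  show QuotientGroup.mk' L₀ (l * y * l⁻¹ * y⁻¹) = 1
  rw [map_mul, map_mul, map_mul, map_inv, map_inv, h2]
  simp

end Cfsg.Agent.Lib.Helper15.TC3GRPR
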