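import Mathlib
import Cfsg.Agent.Lib.Helper14.TC3Stmt
import Cfsg.Agent.Lib.Helper3.TDUniq

/-!
# S4460 / SECT: a Frobenius-type section of `G` from one of `G ⧸ M`
-/

set_option autoImplicit false

namespace Cfsg.Agent.Lib.Helper15.TC3SECT

open Cfsg Cfsg.Agent.Lib.Helper14.TC3Stmt

universe u

theorem main : Sect.{u} := by
  intro G _ _ M _ hsolv hnot
  have hπ : Function.Surjective (QuotientGroup.mk' M) := QuotientGroup.mk'_surjective M
  have hcomm : commutator (G ⧸ M) = (commutator G).map (QuotientGroup.mk' M) := by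
    rw [commutator_def, commutator_def, Subgroup.map_commutator,
      Subgroup.map_top_of_surjective _ hπ]
  have hQne : commutator (G ⧸ M) ≠ ⊥ := by
    intro h
    apply hnot
    rw [hcomm, Subgroup.map_eq_bot_iff] at h
    rwa [QuotientGroup.ker_mk'] at h
  obtain ⟨Kb, p, hKn, hKc, hp, hcase⟩ :=
    Cfsg.Agent.Lib.Helper3.TDUniq.exists_section hsolv hQne
  have hKc' : ¬ commutator G ≤ Kb.comap (QuotientGroup.mk' M) := by
    intro h
    apply hKc
    rw [hcomm]
    exact Subgroup.map_le_iff_le_comap.mpr h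
  refine ⟨Kb.comap (QuotientGroup.mk' M), p, hKn.comap _, hp, hKc', ?_⟩
  rcases hcase with ⟨j, hj⟩ | ⟨Nb, hNn, hKN, hcN, hNtop, hpN, ⟨j, hj⟩, hlt, hab, hfpf⟩
  · left
    exact ⟨j, by rw [Subgroup.index_comap_of_surjective _ hπ, hj]⟩
  · right
    have hrel : (Kb.comap (QuotientGroup.mk' M)).relIndex (Nb.comap (QuotientGroup.mk' M)) =
        Kb.relIndex Nb := by
      rw [Subgroup.relIndex_comap, Subgroup.map_comap_eq_self_of_surjective hπ]
    have hidx : (Nb.comap (QuotientGroup.mk' M)).index = Nb.index :=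
      Subgroup.index_comap_of_surjective _ hπ
    refine ⟨Nb.comap (QuotientGroup.mk' M), hKn.comap _, hp, hNn.comap _,
      Subgroup.comap_mono hKN, ?_, ?_, ?_, ⟨j, by rw [hrel, hj]⟩, ?_, ?_, ?_⟩
    · rw [← Subgroup.map_le_iff_le_comap, ← hcomm]
      exact hcN
    · intro h
      apply hNtop
      rw [← Subgroup.index_eq_one, ← hidx, h, Subgroup.index_top]
    · rw [hidx]
      exact hpN
    · rw [hidx, hrel]
      exact hlt
    · intro a ha b hb
      rw [Subgroup.mem_comap] at ha hb ⊢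
      have := hab _ ha _ hb
      simpa using this
    · intro g hg n hn
      rw [Subgroup.mem_comap] at hg hn
      obtain ⟨xb, hxb, kb, hkb, hnk⟩ := hfpf _ hg _ hn
      obtain ⟨x, rfl⟩ := hπ xb
      refine ⟨x, Subgroup.mem_comap.mpr hxb, (g * x * g⁻¹ * x⁻¹)⁻¹ * n, ?_, by group⟩
      rw [Subgroup.mem_comap, map_mul, hnk]
      simpa [mul_assoc] using hkb

end Cfsg.Agent.Lib.Helper15.TC3SECT
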