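import Mathlib
import Cfsg.Agent.Lib.Helper14.TC3Stmt
import Cfsg.Agent.S4456

/-!
# S4460 / THN: Thompson's normal `q`-complement of a normal subgroup is normal in `G`
-/

set_option autoImplicit false

namespace Cfsg.Agent.Lib.Helper15.TC3THN

open Cfsg Cfsg.Agent.Lib.Helper14.TC3Stmt

universe u

theorem orderOf_conj' {G : Type u} [Group G] (z g : G) :
    orderOf (z * g * z⁻¹) = orderOf g := by
  have := orderOf_injective (MulAut.conj z).toMonoidHom (MulAut.conj z).injective g
  simpa [MulAut.conj_apply] using this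

theorem main : THN.{u} := by
  intro G _ _ N q hN hq hdeg
  obtain ⟨L₁, hL₁n, hcop, k, hk⟩ := Cfsg.Agent.S4456.result (G := ↥N) q hq hdeg
  have hmemL₁ : ∀ x : ↥N, Nat.Coprime (orderOf x) q → x ∈ L₁ := by
    intro x hx
    have h1 : (L₁.index).Coprime (orderOf x) := by
      rw [hk]
      exact Nat.Coprime.pow_left k hx.symm
    obtain ⟨m, hm⟩ := exists_pow_eq_self_of_coprime h1
    rw [← hm]
    exact L₁.pow_mem (Subgroup.pow_index_mem L₁ x) m
  refine ⟨L₁.map N.subtype, ⟨?_⟩, Subgroup.map_subtype_le L₁, ?_, k, ?_⟩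
  · rintro x ⟨y, hy, rfl⟩ g
    refine ⟨⟨g * (y : G) * g⁻¹, hN.conj_mem _ y.2 g⟩, ?_, rfl⟩
    apply hmemL₁
    rw [Subgroup.orderOf_mk, orderOf_conj', Subgroup.orderOf_coe]
    exact Nat.Coprime.coprime_dvd_left (Subgroup.orderOf_dvd_natCard L₁ hy) hcop
  · rw [Subgroup.card_map_of_injective N.subtype_injective]
    exact hcop
  · rw [Subgroup.relIndex, Subgroup.subgroupOf,
      Subgroup.comap_map_eq_self_of_injective N.subtype_injective]
    exact hk

end Cfsg.Agent.Lib.Helper15.TC3THN
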