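import Mathlib
import Cfsg.Agent.Lib.Helper41.TMTwoStmt

/-!
# S5987 / TM2INVFIX (sub-call by helper41)

Glue: an involution of the minus form fixes a totally singular `m`-space for every `m ≤ d - 1`
(from `InvDec`, `TsBig`, `TwoMinus`).
-/

set_option autoImplicit false
set_option maxHeartbeats 400000

universe u

open scoped Matrix

namespace Cfsg.Agent.Lib.Helper15.TM2INVFIX

open Cfsg.Agent.Lib.Helper41.TMTwoStmt
open Cfsg.Agent.Lib.Helper45.OMiStmt (M Aniso FxM NDegM StabM TopNDM)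

/-- subspaces of every smaller finrank -/
theorem exists_sub_finrank {F V : Type*} [Field F] [AddCommGroup V] [Module F V]
    [FiniteDimensional F V] (U : Submodule F V) (j : ℕ) (hj : j ≤ Module.finrank F ↥U) :
    ∃ U' : Submodule F V, U' ≤ U ∧ Module.finrank F ↥U' = j := by
  classical
  have hli : LinearIndependent F
      (fun i : Fin j => ((Module.finBasis F ↥U (Fin.castLE hj i) : ↥U) : V)) := by
    have h1 : LinearIndependent F (fun i : Fin j => Module.finBasis F ↥U (Fin.castLE hj i)) :=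
      (Module.finBasis F ↥U).linearIndependent.comp _ (Fin.castLE_injective hj)
    exact h1.map' U.subtype (Submodule.ker_subtype U)
  refine ⟨Submodule.span F
    (Set.range (fun i : Fin j => ((Module.finBasis F ↥U (Fin.castLE hj i) : ↥U) : V))), ?_, ?_⟩
  · rw [Submodule.span_le]
    rintro _ ⟨i, rfl⟩
    exact (Module.finBasis F ↥U (Fin.castLE hj i)).2
  · rw [finrank_span_eq_card hli, Fintype.card_fin]

theorem main (hDec : InvDec.{u}) (hBig : TsBig.{u}) (hTwo : TwoMinus.{u}) : InvFix.{u} := by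
  intro F _ _ hodd d m hmd a b hab x hx hx2
  have hd1 : 1 ≤ d := by omega
  obtain ⟨hFxND, hFmND, horth, hinf, hdim, hsup⟩ := hDec F hodd d hd1 a b hab x hx hx2
  have hbot : TSubM d F a b (⊥ : Submodule F (M d → F)) := by
    intro w hw
    rw [Submodule.mem_bot] at hw
    subst hw
    unfold Cfsg.quadFormMinus
    simp
  have key : ∃ U₁ U₂ : Submodule F (M d → F), U₁ ≤ FxM (x : Matrix (M d) (M d) F) ∧
      U₂ ≤ FmM (x : Matrix (M d) (M d) F) ∧ TSubM d F a b U₁ ∧ TSubM d F a b U₂ ∧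
      Module.finrank F ↥U₁ + Module.finrank F ↥U₂ = m := by
    have big : ∃ V₁ V₂ : Submodule F (M d → F), V₁ ≤ FxM (x : Matrix (M d) (M d) F) ∧
        V₂ ≤ FmM (x : Matrix (M d) (M d) F) ∧ TSubM d F a b V₁ ∧ TSubM d F a b V₂ ∧
        d ≤ Module.finrank F ↥V₁ + Module.finrank F ↥V₂ + 1 := by
      obtain ⟨U₁, hU₁, hts₁, hd₁⟩ := hBig F hodd d a b (FxM (x : Matrix (M d) (M d) F))
      obtain ⟨U₂, hU₂, hts₂, hd₂⟩ := hBig F hodd d a b (FmM (x : Matrix (M d) (M d) F))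
      by_cases hev : Even (Module.finrank F ↥(FxM (x : Matrix (M d) (M d) F)))
      · rcases hTwo F hodd d hd1 a b hab _ _ hFxND hFmND horth hsup hev with
          ⟨U, hU, hts, hdU⟩ | ⟨U, hU, hts, hdU⟩
        · exact ⟨U, U₂, hU, hU₂, hts, hts₂, by omega⟩
        · exact ⟨U₁, U, hU₁, hU, hts₁, hts, by omega⟩
      · have hodd1 : Odd (Module.finrank F ↥(FxM (x : Matrix (M d) (M d) F))) :=
          Nat.not_even_iff_odd.mp hev
        refine ⟨U₁, U₂, hU₁, hU₂, hts₁, hts₂, ?_⟩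
        obtain ⟨k, hk⟩ := hodd1
        omega
    obtain ⟨V₁, V₂, hV₁, hV₂, hts₁, hts₂, hbig⟩ := big
    by_cases h1 : m ≤ Module.finrank F ↥V₁
    · obtain ⟨U₁, hU₁, hd₁⟩ := exists_sub_finrank V₁ m h1
      refine ⟨U₁, ⊥, hU₁.trans hV₁, bot_le, fun w hw => hts₁ w (hU₁ hw), hbot, ?_⟩
      rw [hd₁, finrank_bot, add_zero]
    · have h2 : m - Module.finrank F ↥V₁ ≤ Module.finrank F ↥V₂ := by omega
      obtain ⟨U₂, hU₂, hd₂⟩ := exists_sub_finrank V₂ _ h2
      refine ⟨V₁, U₂, hV₁, hU₂.trans hV₂, hts₁, fun w hw => hts₂ w (hU₂ hw), ?_⟩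
      rw [hd₂]
      omega
  obtain ⟨U₁, U₂, hU₁, hU₂, hts₁, hts₂, hsum⟩ := key
  refine ⟨U₁ ⊔ U₂, ?_, ?_, ?_⟩
  · -- dimension
    have h1 := Submodule.finrank_sup_add_finrank_inf_eq U₁ U₂
    have h2 : U₁ ⊓ U₂ = ⊥ := by
      rw [eq_bot_iff, ← hinf]
      exact inf_le_inf hU₁ hU₂
    rw [h2, finrank_bot, add_zero] at h1
    rw [h1, hsum]
  · -- totally singular
    intro w hw
    obtain ⟨u₁, hu₁, u₂, hu₂, rfl⟩ := Submodule.mem_sup.mp hw
    have h1 := horth u₁ (hU₁ hu₁) u₂ (hU₂ hu₂)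
    have h2 := hts₁ u₁ hu₁
    have h3 := hts₂ u₂ hu₂
    unfold QuadraticMap.polar at h1
    rw [h2, h3, sub_zero, sub_zero] at h1
    exact h1
  · -- invariant
    rintro _ ⟨w, hw, rfl⟩
    obtain ⟨u₁, hu₁, u₂, hu₂, rfl⟩ := Submodule.mem_sup.mp hw
    rw [map_add]
    apply Submodule.add_mem
    · apply Submodule.mem_sup_left
      have h1 : u₁ ∈ FxM (x : Matrix (M d) (M d) F) := hU₁ hu₁
      unfold FxM at h1
      rw [LinearMap.mem_ker, LinearMap.sub_apply, LinearMap.id_apply, sub_eq_zero] at h1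
      rw [h1]
      exact hu₁
    · apply Submodule.mem_sup_right
      have h1 : u₂ ∈ FmM (x : Matrix (M d) (M d) F) := hU₂ hu₂
      unfold FmM at h1
      rw [LinearMap.mem_ker, LinearMap.add_apply, LinearMap.id_apply] at h1
      rw [eq_neg_of_add_eq_zero_left h1]
      exact Submodule.neg_mem _ hu₂

end Cfsg.Agent.Lib.Helper15.TM2INVFIX
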