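import Mathlib
import Cfsg.Agent.Lib.Helper41.TMTwoStmt
import Cfsg.Agent.Lib.Helper44.NegPairs
import Cfsg.Agent.Lib.Helper34.CWCore

/-!
# S5987 / TM2TSEXT (sub-call by helper41)

A totally singular `U` (minus form, `q` odd) with `finrank U + 2 ≤ d` is not maximal: there is a
singular `v ∉ U` orthogonal to `U` (Chevalley-Warning on `U^⊥ ⊓ C'`, `C'` a complement of `U`).
-/

set_option autoImplicit false
set_option maxHeartbeats 400000

universe u

open scoped Matrix

namespace Cfsg.Agent.Lib.Helper15.TM2TSEXT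

open Cfsg.Agent.Lib.Helper41.TMTwoStmt
open Cfsg.Agent.Lib.Helper45.OMiStmt (M Aniso FxM NDegM StabM TopNDM)

theorem two_ne_zero' (F : Type u) [Field F] [Fintype F] (hodd : Odd (Fintype.card F)) :
    (2 : F) ≠ 0 := by
  apply Ring.two_ne_zero
  intro h
  rw [FiniteField.even_card_iff_char_two] at h
  rcases hodd with ⟨k, hk⟩
  omega

/-- Chevalley-Warning: over a finite field of odd characteristic, a subspace `D` with
`3 ≤ finrank D` contains a nonzero singular vector of the quadratic form `Q`. -/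
theorem exists_sing {F : Type u} [Field F] [Fintype F] (h2 : (2 : F) ≠ 0)
    {V : Type u} [AddCommGroup V] [Module F V] [FiniteDimensional F V]
    (Q : QuadraticForm F V) (D : Submodule F V) (hD : 3 ≤ Module.finrank F ↥D) :
    ∃ w ∈ D, w ≠ 0 ∧ Q w = 0 := by
  classical
  obtain ⟨p, hp⟩ := CharP.exists F
  have := hp
  have : Fact p.Prime := ⟨CharP.char_is_prime F p⟩
  have h6 : 2 * 1 < Module.finrank F ↥D := by omega
  obtain ⟨w, hwD, hw0, hwL⟩ :=
    Cfsg.Agent.Lib.Helper34.CWCore.exists_cw p (fun _ => Q.polarBilin) 1 D h6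
  have hw1 : QuadraticMap.polar Q w w = 0 := hwL 0 (by norm_num)
  refine ⟨w, hwD, hw0, ?_⟩
  rw [QuadraticMap.polar_self, two_nsmul] at hw1
  have h3 : 2 * Q w = 0 := by linear_combination hw1
  rcases mul_eq_zero.mp h3 with h | h
  · exact absurd h h2
  · exact h

theorem main : TsExt.{u} := by
  intro F _ _ hodd d a b U hU hUd
  classical
  have h2 : (2 : F) ≠ 0 := two_ne_zero' F hodd
  obtain ⟨Q, hQ⟩ : ∃ Q : QuadraticForm F (M d → F), ⇑Q = Cfsg.quadFormMinus (d - 1) F a b :=
    ⟨Cfsg.Agent.Lib.Helper44.NegPairs.minusQ (d - 1) F a b, rfl⟩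
  have hU' : ∀ w ∈ U, Q w = 0 := by
    intro w hw
    rw [hQ]
    exact hU w hw
  rw [← hQ]
  have hdimV : Module.finrank F (M d → F) = 2 * d := by
    rw [Module.finrank_fintype_fun_eq_card]
    simp only [Fintype.card_sum, Fintype.card_fin]
    omega
  obtain ⟨B, hB⟩ : ∃ B : LinearMap.BilinForm F (M d → F), B = Q.polarBilin := ⟨_, rfl⟩
  have hBapp : ∀ x y, B x y = QuadraticMap.polar Q x y := by
    intro x y
    rw [hB]
    rfl
  have hrefl : B.IsRefl := by
    intro x y h
    rw [hBapp] at h ⊢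
    rw [QuadraticMap.polar_comm]
    exact h
  have h1 := LinearMap.BilinForm.finrank_add_finrank_orthogonal hrefl U
  obtain ⟨C', hC'⟩ := Submodule.exists_isCompl U
  have h3 := Submodule.finrank_add_eq_of_isCompl hC'
  have h4 := Submodule.finrank_sup_add_finrank_inf_eq (B.orthogonal U) C'
  have h5 : Module.finrank F ↥(B.orthogonal U ⊔ C') ≤ Module.finrank F (M d → F) :=
    Submodule.finrank_le _
  rw [hdimV] at h1 h3 h5
  have h6 : 3 ≤ Module.finrank F ↥(B.orthogonal U ⊓ C') := by omega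
  obtain ⟨w, hwC, hw0, hQw⟩ := exists_sing h2 Q (B.orthogonal U ⊓ C') h6
  refine ⟨w, ?_, hQw, ?_⟩
  · intro hwU
    have h7 : w ∈ U ⊓ C' := ⟨hwU, hwC.2⟩
    rw [hC'.inf_eq_bot] at h7
    exact hw0 ((Submodule.mem_bot F).mp h7)
  · intro u hu
    have h8 := (LinearMap.BilinForm.mem_orthogonal_iff.mp hwC.1) u hu
    rw [hBapp] at h8
    exact h8

end Cfsg.Agent.Lib.Helper15.TM2TSEXT
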