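import Mathlib
import Cfsg.Agent.Lib.Helper41.TMStmt
import Cfsg.Agent.Lib.Helper15.TMBADA

/-! S5987 piece BADC (minus form): the element of MultElt fixes no totally singular `m`-space
when `2 d - i u < 2 m`. -/

set_option autoImplicit false
universe u

namespace Cfsg.Agent.Lib.Helper15.TMBADC

open Cfsg.Agent.Lib.Helper41.TMStmt
open Cfsg.Agent.Lib.Helper37.HypStmt (cc IPos)
open Cfsg.Agent.Lib.Helper44.TSStmt (Fac NumTypes)
open Cfsg.Agent.Lib.Helper45.OMiStmt (M Aniso FxM NDegM StabM)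
open Cfsg.Agent.Lib.Helper41.TMTwoStmt (TSubM PlusM FixTSM)
open scoped Matrix

theorem main (hME : MultElt.{u}) (hFix : FixND.{u}) (hTs : TsHalf.{u}) (hR : RImg.{u}) :
    BadC.{u} := by
  intro F _ _ a₀ b₀ hab p _ _ d m hd r _ hr2 hrp heven u hu hut hlt hcond
  obtain ⟨x, hxO, hxr, hxF, hxR⟩ := hME F a₀ b₀ hab p d hd r hr2 hrp heven u hu hut hlt
  refine ⟨x, hxO, hxr, ?_⟩
  rintro ⟨W, hWm, hWts, hWst⟩
  have hxI := Cfsg.Agent.Lib.Helper15.TMBADA.mem_iso_of_mem_omega a₀ b₀ x hxO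
  obtain ⟨R, hRW, hRst, hRF, hRdim, -⟩ := hR F a₀ b₀ hab p d r hrp x hxr W hWst
  have hR0 : R = ⊥ := hxR R hRst hRF (fun w hw => hWts w (hRW hw))
  have hRfin : Module.finrank F ↥R = 0 := by rw [hR0]; exact finrank_bot F (M d → F)
  have hND := hFix F a₀ b₀ hab p d r hrp x hxI hxr
  have hhalf := hTs F a₀ b₀ hab d (FxM (x : Matrix (M d) (M d) F))
    (W ⊓ FxM (x : Matrix (M d) (M d) F)) hND inf_le_right (fun w hw => hWts w hw.1)
  rw [hxF] at hhalf
  rw [hWm, hRfin] at hRdim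
  omega

end Cfsg.Agent.Lib.Helper15.TMBADC
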