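import Mathlib
import Cfsg.Agent.Lib.Lead.TuanStmt
import Cfsg.Agent.Lib.Helper75.OrdThree
import Cfsg.Agent.Lib.CT.Wedderburn

set_option autoImplicit false

/-! Piece CM of S0997 part T: class multiplication for `t, t → y`. -/

namespace Cfsg.Agent.Lib.Helper15.TSCM

open Cfsg Cfsg.Agent.Lib.Lead.Tuan
open scoped ComplexConjugate Classical

universe u

theorem main : CM.{u} := by
  intro G _ _ _ t y
  have h := Cfsg.Agent.Lib.Helper75.OrdThree.class_mul t t y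
  have hidx : (Nat.card (Subgroup.centralizer ({t} : Set G)) : ℂ) *
      ((Subgroup.centralizer ({t} : Set G)).index : ℂ) = (Nat.card G : ℂ) := by
    rw [← Nat.cast_mul, Subgroup.card_mul_index]
  have hterm : ∀ χ : IrrCharacter G,
      centralChar (χ : G → ℂ) t * centralChar (χ : G → ℂ) t * (χ : G → ℂ) 1 *
        conj ((χ : G → ℂ) y) =
      ((Subgroup.centralizer ({t} : Set G)).index : ℂ) ^ 2 *
        ((χ : G → ℂ) t * (χ : G → ℂ) t * conj ((χ : G → ℂ) y) / (χ : G → ℂ) 1) := by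
    intro χ
    have h1 : (χ : G → ℂ) 1 ≠ 0 := Cfsg.Agent.Lib.CT.Wedderburn.irr_apply_one_ne_zero χ.2
    unfold centralChar
    field_simp
  rw [Finset.sum_congr rfl (fun χ _ => hterm χ), ← Finset.mul_sum] at h
  have hG0 : (Nat.card G : ℂ) ≠ 0 := by exact_mod_cast Nat.card_pos.ne'
  obtain ⟨N, hN⟩ : ∃ N : ℂ,
      N = (Nat.card {q : G × G // IsConj t q.1 ∧ IsConj t q.2 ∧ q.1 * q.2 = y} : ℂ) := ⟨_, rfl⟩
  obtain ⟨S, hS⟩ : ∃ S : ℂ, S = ∑ ψ : IrrCharacter G,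
      (ψ : G → ℂ) t * (ψ : G → ℂ) t * conj ((ψ : G → ℂ) y) / (ψ : G → ℂ) 1 := ⟨_, rfl⟩
  obtain ⟨C, hC⟩ : ∃ C : ℂ, C = (Nat.card (Subgroup.centralizer ({t} : Set G)) : ℂ) :=
    ⟨_, rfl⟩
  obtain ⟨I, hI⟩ : ∃ I : ℂ, I = ((Subgroup.centralizer ({t} : Set G)).index : ℂ) := ⟨_, rfl⟩
  rw [← hN, ← hS, ← hI] at h
  rw [← hC, ← hI] at hidx
  rw [← hN, ← hS, ← hC]
  apply mul_left_cancel₀ hG0
  linear_combination (-(C ^ 2)) * h + S * (C * I + (Nat.card G : ℂ)) * hidx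

end Cfsg.Agent.Lib.Helper15.TSCM
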