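import Mathlib
import Cfsg.Agent.Lib.Lead.TuanStmt
import Cfsg.Agent.Lib.CT.Wedderburn
import Cfsg.Agent.Lib.CT.Ops
import Cfsg.Agent.Lib.CT.Kernel
import Cfsg.Agent.Lib.Helper80.Burnside
import Cfsg.Agent.Lib.Helper21.BrCPerSum
import Cfsg.Agent.S4466
import Cfsg.Agent.Lib.Helper15.TSTriv

set_option autoImplicit false
set_option linter.style.haveILetI false

/-! Piece SumPos of S0997 part T: the character sum at a `2`-central involution is a real number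
`≥ 1`. -/

namespace Cfsg.Agent.Lib.Helper15.TSSumPos

open Cfsg Cfsg.Agent.Lib.Lead.Tuan Cfsg.Agent.Lib.Lead.BrHalf
open scoped ComplexConjugate Classical

universe u

variable {G : Type u} [Group G] [Fintype G] {p : ℕ} [Fact p.Prime]

/-- characters are real on involutions -/
theorem real_of_inv {χ : G → ℂ} (hχ : IsCharacter G χ) (t : G) (ht : orderOf t = 2) :
    ∃ a : ℝ, χ t = (a : ℂ) := by
  have h1 : t⁻¹ = t := by
    have h2 : t ^ 2 = 1 := by rw [← ht]; exact pow_orderOf_eq_one t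
    rw [pow_two] at h2
    exact inv_eq_of_mul_eq_one_left h2
  have h3 := Cfsg.Agent.Lib.CT.Wedderburn.char_apply_inv hχ t
  rw [h1] at h3
  exact ⟨(χ t).re, (Complex.conj_eq_iff_re.mp h3.symm).symm⟩

theorem center_bot (c : TCtx G p) : Subgroup.center G = ⊥ := by
  haveI := c.hsimple
  rcases (inferInstance : (Subgroup.center G).Normal).eq_bot_or_eq_top with h | h
  · exact h
  · exfalso
    apply c.hnc
    intro g h'
    have hg : g ∈ Subgroup.center G := by rw [h]; exact Subgroup.mem_top g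
    exact (Subgroup.mem_center_iff.mp hg h').symm

theorem four_dvd_e (c : TCtx G p) : 4 ∣ c.e := by
  rw [c.he]
  calc 4 = 2 ^ 2 := rfl
    _ ∣ 2 ^ c.j := pow_dvd_pow 2 c.hj

theorem odd_index (c : TCtx G p) (t : G)
    (hb : 2 ^ c.b ∣ Nat.card (Subgroup.centralizer ({t} : Set G))) :
    Odd (Subgroup.centralizer ({t} : Set G)).index := by
  obtain ⟨m, hm⟩ := hb
  have h1 := Subgroup.card_mul_index (Subgroup.centralizer ({t} : Set G))
  rw [hm, c.hcard] at h1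
  have h2 : m * (Subgroup.centralizer ({t} : Set G)).index = p * (c.e + 1) := by
    have h3 : 2 ^ c.b * (m * (Subgroup.centralizer ({t} : Set G)).index) =
        2 ^ c.b * (p * (c.e + 1)) := by
      rw [← mul_assoc, ← mul_assoc]; exact h1
    exact Nat.eq_of_mul_eq_mul_left (by positivity) h3
  have hodd : Odd (p * (c.e + 1)) := by
    have hp := c.hp
    obtain ⟨k, hk⟩ := four_dvd_e c
    apply Odd.mul
    · rw [hp]; exact ⟨c.e, rfl⟩
    · exact ⟨2 * k, by omega⟩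
  rw [← h2] at hodd
  exact (Nat.odd_mul.mp hodd).2

/-- Burnside: the members of `X` of degree `p - 1` vanish at a `2`-central involution. -/
theorem vanish (c : TCtx G p) (hTriv : Triv.{u}) (t : G) (ht : orderOf t = 2)
    (hb : 2 ^ c.b ∣ Nat.card (Subgroup.centralizer ({t} : Set G)))
    (ψ : IrrCharacter G) (hψ : ψ ∈ c.X) (hε : c.εX ψ = -1)
    (hdeg : charDegree (ψ : G → ℂ) = p - 1) : (ψ : G → ℂ) t = 0 := by
  haveI := c.hsimple
  have hne : (ψ : G → ℂ) ≠ fun _ => 1 := by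
    intro h
    have h1 := (hTriv p c ψ h).2
    rw [hε] at h1
    omega
  have hfaith := (Cfsg.Agent.S4466.faithful_of_ne c.hnc ψ hne).1
  have hcop : Nat.Coprime (charDegree (ψ : G → ℂ))
      (Subgroup.centralizer ({t} : Set G)).index := by
    rw [hdeg]
    have hpe : p - 1 = 2 ^ (c.j + 1) := by
      have h1 := c.hp
      have h2 := c.he
      rw [pow_succ, ← h2]
      omega
    rw [hpe]
    apply Nat.Coprime.pow_left
    exact Nat.coprime_two_left.mpr (odd_index c t hb)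
  rcases Cfsg.Agent.Lib.Helper80.Burnside.irr_eq_zero_or_norm_eq_of_coprime ψ t hcop with h | h
  · exact h
  · exfalso
    have hz := (Cfsg.Agent.Lib.CT.Kernel.norm_eq_iff_mem_center ψ.2 hfaith t).mp h
    rw [center_bot c, Subgroup.mem_bot] at hz
    rw [hz, orderOf_one] at ht
    omega

theorem real_nonneg (z : ℂ) (r : ℝ) (h : z = (r : ℂ)) (hr : 0 ≤ r) :
    z = ((z.re : ℝ) : ℂ) ∧ 0 ≤ z.re := by
  subst h
  simp [hr]

theorem main (hColX : ColX.{u}) (hXShape : XShape.{u})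
    (hReal : Cfsg.Agent.Lib.Lead.Tuan.Real.{u}) (hUniq : Uniq.{u}) (hTriv : Triv.{u}) :
    SumPos.{u} := by
  intro G _ _ _ p _ c t ht hb
  have hpf := Cfsg.Agent.Lib.Helper15.TSTriv.p_facts c
  have h1 : ¬ p ∣ 1 := Cfsg.Agent.Lib.Helper15.TSTriv.not_dvd_one c
  obtain ⟨hθne, hθ1X, hθ2X, -⟩ := hUniq p c
  obtain ⟨hXS, -⟩ := hXShape p c
  obtain ⟨T, hT⟩ : ∃ T : IrrCharacter G → ℂ, T = fun ψ : IrrCharacter G =>
      (ψ : G → ℂ) t * (ψ : G → ℂ) t * conj ((ψ : G → ℂ) c.x) / (ψ : G → ℂ) 1 := ⟨_, rfl⟩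
  have hTψ : ∀ ψ : IrrCharacter G, T ψ =
      (ψ : G → ℂ) t * (ψ : G → ℂ) t * conj ((ψ : G → ℂ) c.x) / (ψ : G → ℂ) 1 := by
    intro ψ; rw [hT]
  -- (A) the characters other than `θ₁`, `θ₂`
  have hA : ∀ ψ : IrrCharacter G, ψ ≠ c.θ₁ → ψ ≠ c.θ₂ →
      T ψ = ((T ψ).re : ℂ) ∧ 0 ≤ (T ψ).re := by
    intro ψ h1' h2'
    by_cases hX : ψ ∈ c.X
    · have hx : (ψ : G → ℂ) c.x = (c.εX ψ : ℂ) := by
        have h := c.hXval ψ hX 1 h1
        rwa [pow_one] at h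
      obtain ⟨a, ha⟩ := real_of_inv (Cfsg.Agent.Lib.CT.Wedderburn.isCharacter_of_irr ψ.2) t ht
      have hd := Cfsg.Agent.Lib.CT.Wedderburn.char_natCast_charDegree
        (Cfsg.Agent.Lib.CT.Wedderburn.isCharacter_of_irr ψ.2)
      rcases hXS ψ hX with h | ⟨hε, hdeg⟩ | ⟨hε, hdeg⟩
      · apply real_nonneg _ 1 _ zero_le_one
        rw [hTψ, h]
        simp
      · apply real_nonneg _ (a * a / ((p : ℝ) + 1)) _
          (div_nonneg (mul_self_nonneg _) (by positivity))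
        rw [hTψ, hx, hε, ← hd, hdeg, ha]
        push_cast
        simp
      · apply real_nonneg _ 0 _ le_rfl
        rw [hTψ, vanish c hTriv t ht hb ψ hX hε hdeg]
        simp
    · apply real_nonneg _ 0 _ le_rfl
      have h := hColX p c ψ hX h1' h2' 1 h1
      rw [pow_one] at h
      rw [hTψ, h]
      simp
  -- (B) `θ₁` and `θ₂`
  have hB : ∃ rθ : ℝ, 0 ≤ rθ ∧ T c.θ₁ + T c.θ₂ = (rθ : ℂ) := by
    have ht12 : (c.θ₁ : G → ℂ) t = (c.θ₂ : G → ℂ) t := by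
      apply c.hreg t
      rw [ht]
      intro h
      have h2 := Nat.le_of_dvd (by norm_num) h
      have h3 := hpf.2.1
      omega
    have hr := (hReal p c t).1
    obtain ⟨a, ha⟩ : ∃ a : ℝ, (c.θ₁ : G → ℂ) t = (a : ℂ) :=
      ⟨_, (Complex.conj_eq_iff_re.mp hr).symm⟩
    have hx1 := c.hθ₁ 1
    have hx2 := c.hθ₂ 1
    rw [pow_one] at hx1 hx2
    have hsum := Cfsg.Agent.Lib.Helper21.BrCPerSum.main p hpf.1 c.ζ c.hζ 1 c.ν h1 c.hν
    have hconj : conj ((c.θ₁ : G → ℂ) c.x) + conj ((c.θ₂ : G → ℂ) c.x) = 1 := by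
      rw [← map_add, hx1, hx2]
      have h4 : (1 + per p c.ζ 1 + (1 + per p c.ζ (1 * c.ν))) = 1 := by
        linear_combination hsum
      rw [h4, map_one]
    refine ⟨a * a / ((c.e : ℝ) + 1), div_nonneg (mul_self_nonneg _) (by positivity), ?_⟩
    rw [hTψ, hTψ, ← ht12, Cfsg.Agent.Lib.Helper15.TSTriv.deg1 c,
      Cfsg.Agent.Lib.Helper15.TSTriv.deg2 c]
    have h3 : (c.θ₁ : G → ℂ) t * (c.θ₁ : G → ℂ) t * conj ((c.θ₁ : G → ℂ) c.x) /
          ((c.e : ℂ) + 1) +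
        (c.θ₁ : G → ℂ) t * (c.θ₁ : G → ℂ) t * conj ((c.θ₂ : G → ℂ) c.x) / ((c.e : ℂ) + 1) =
        (c.θ₁ : G → ℂ) t * (c.θ₁ : G → ℂ) t *
          (conj ((c.θ₁ : G → ℂ) c.x) + conj ((c.θ₂ : G → ℂ) c.x)) / ((c.e : ℂ) + 1) := by
      ring
    rw [h3, hconj, mul_one, ha]
    push_cast
    ring
  obtain ⟨rθ, hrθ, hθsum⟩ := hB
  have hsplit : ∑ ψ : IrrCharacter G, T ψ =
      T c.θ₁ + T c.θ₂ + ∑ ψ ∈ (Finset.univ.erase c.θ₁).erase c.θ₂, T ψ := by
    rw [← Finset.add_sum_erase Finset.univ T (Finset.mem_univ c.θ₁),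
      ← Finset.add_sum_erase (Finset.univ.erase c.θ₁) T
        (Finset.mem_erase.mpr ⟨hθne.symm, Finset.mem_univ _⟩)]
    ring
  have hrest : ∑ ψ ∈ (Finset.univ.erase c.θ₁).erase c.θ₂, T ψ =
      ((∑ ψ ∈ (Finset.univ.erase c.θ₁).erase c.θ₂, (T ψ).re : ℝ) : ℂ) := by
    rw [Complex.ofReal_sum]
    apply Finset.sum_congr rfl
    intro ψ hψ
    rw [Finset.mem_erase, Finset.mem_erase] at hψ
    exact (hA ψ hψ.2.1 hψ.1).1
  have hge : 1 ≤ ∑ ψ ∈ (Finset.univ.erase c.θ₁).erase c.θ₂, (T ψ).re := by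
    obtain ⟨χ₀, hχ₀⟩ : ∃ χ₀ : IrrCharacter G, (χ₀ : G → ℂ) = fun _ => 1 :=
      ⟨⟨_, Cfsg.Agent.Lib.CT.Ops.isIrrCharacter_one⟩, rfl⟩
    have hχ₀X := (hTriv p c χ₀ hχ₀).1
    have hne1 : χ₀ ≠ c.θ₁ := fun h => hθ1X (h ▸ hχ₀X)
    have hne2 : χ₀ ≠ c.θ₂ := fun h => hθ2X (h ▸ hχ₀X)
    have hmem : χ₀ ∈ (Finset.univ.erase c.θ₁).erase c.θ₂ :=
      Finset.mem_erase.mpr ⟨hne2, Finset.mem_erase.mpr ⟨hne1, Finset.mem_univ _⟩⟩
    have hT0 : (T χ₀).re = 1 := by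
      rw [hTψ, hχ₀]
      simp
    calc (1 : ℝ) = (T χ₀).re := hT0.symm
      _ ≤ ∑ ψ ∈ (Finset.univ.erase c.θ₁).erase c.θ₂, (T ψ).re :=
        Finset.single_le_sum (f := fun ψ => (T ψ).re) (fun ψ hψ => by
          rw [Finset.mem_erase, Finset.mem_erase] at hψ
          exact (hA ψ hψ.2.1 hψ.1).2) hmem
  refine ⟨rθ + ∑ ψ ∈ (Finset.univ.erase c.θ₁).erase c.θ₂, (T ψ).re, by linarith, ?_⟩
  have hfin : ∑ ψ : IrrCharacter G,
      (ψ : G → ℂ) t * (ψ : G → ℂ) t * conj ((ψ : G → ℂ) c.x) / (ψ : G → ℂ) 1 =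
      ∑ ψ : IrrCharacter G, T ψ := by rw [hT]
  rw [hfin, hsplit, hθsum, hrest]
  push_cast
  ring

end Cfsg.Agent.Lib.Helper15.TSSumPos
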